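/-
Abstract part of the structure of the centralizer of a product of four commuting transpositions in `Fi24'`.
-/
import Mathlib
import Cfsg.Prelude.Def_Transfer
import Cfsg.Prelude.Def_Local
import Cfsg.Agent.Lib.Basic.PCore
import Cfsg.Agent.Lib.Fischer.M22.R3.FStar
import Cfsg.Agent.Lib.Fischer.M22.R3.Step
import Cfsg.Agent.Lib.Components.Transport
import Cfsg.Agent.Lib.Fusion.GenExtra

set_option autoImplicit false

namespace Cfsg.Agent.Lib.Fischer.M24.C4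

open Cfsg Subgroup

/-- The conclusion. -/
def Concl (X : Type*) [Group X] : Prop :=
  ∃ (Q : Subgroup X) (_ : Q.Normal), generalizedFittingSubgroup X = Q ∧ IsExtraspecial 2 ↥Q ∧ Nat.card Q = 2 ^ 13 ∧
    ∃ (N M : Subgroup X) (_ : N.Normal) (_ : M.Normal), Q ≤ N ∧ N ≤ M ∧ Nat.card N = 3 * Nat.card Q ∧
      (∃ (K : Type) (_ : Field K) (_ : Fintype K), Fintype.card K = 9 ∧ Nonempty (↥M ⧸ N.subgroupOf M ≃* PSU 4 K 3)) ∧
        M.index = 2

section abs

variable {X : Type*} [Group X] [Finite X]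

theorem dvd_card_of_mem {N : Subgroup X} {y : X} (hy : y ∈ N) : orderOf y ∣ Nat.card N := by
  have h := orderOf_dvd_natCard (⟨y, hy⟩ : ↥N)
  rwa [Subgroup.orderOf_mk] at h

/-- The data. -/
structure Data (ρ : X →* Equiv.Perm (Fin 126)) (F : Subgroup (Equiv.Perm (Fin 126))) (Q : Subgroup X) (y c q1 : X) : Prop where
  hF : IsSimpleGroup F
  hFcard : Nat.card F = 3265920
  hFle : F ≤ ρ.range
  hFc : ∀ π : Equiv.Perm (Fin 126), (∀ f ∈ F, π * f = f * π) → π = 1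
  hsign : Equiv.Perm.sign (ρ c) = -1
  hQker : Q ≤ ρ.ker
  hQcard : Nat.card Q = 2 ^ 13
  hy3 : orderOf y = 3
  hyker : y ∈ ρ.ker
  hyQ : ∀ q ∈ Q, y * q * y⁻¹ ∈ Q
  hcard : Nat.card X ≤ 2 ^ 21 * 3 ^ 7 * 5 * 7
  hcen : Q.Normal → ∀ x : X, (∀ q ∈ Q, x * q = q * x) → ρ x = 1
  hq1 : q1 ∈ Q
  hy1 : ∀ q ∈ Q, q * q1 * q⁻¹ ≠ y * q1 * y⁻¹

variable {ρ : X →* Equiv.Perm (Fin 126)} {F : Subgroup (Equiv.Perm (Fin 126))} {Q : Subgroup X} {y c q1 : X}

namespace Data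

variable (h : Data ρ F Q y c q1)
include h

/-- The elements of `F` are even. -/
theorem sign_F {f : Equiv.Perm (Fin 126)} (hf : f ∈ F) : Equiv.Perm.sign f = 1 := by
  haveI := h.hF
  let s : ↥F →* ℤˣ := Equiv.Perm.sign.comp F.subtype
  rcases (MonoidHom.normal_ker s).eq_bot_or_eq_top with h1 | h1
  · exfalso
    have hinj : Function.Injective s := (MonoidHom.ker_eq_bot_iff s).1 h1
    have h2 := Nat.card_le_card_of_injective s hinj
    rw [h.hFcard] at h2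
    have h3 : Nat.card ℤˣ = 2 := by simp [Nat.card_eq_fintype_card]
    omega
  · have : (⟨f, hf⟩ : ↥F) ∈ s.ker := by
      rw [h1]
      trivial
    exact this

/-- The index two subgroup. -/
noncomputable abbrev MM (ρ : X →* Equiv.Perm (Fin 126)) : Subgroup X := (Equiv.Perm.sign.comp ρ).ker

omit h in
theorem ker_le_MM : ρ.ker ≤ MM ρ := by
  intro x hx
  show Equiv.Perm.sign (ρ x) = 1
  rw [MonoidHom.mem_ker.1 hx, map_one]

theorem index_MM : (MM ρ).index = 2 := by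
  rw [Subgroup.index_ker]
  have h1 : (Equiv.Perm.sign.comp ρ).range = ⊤ := by
    rw [eq_top_iff]
    rintro u -
    rcases Int.units_eq_one_or u with rfl | rfl
    · exact one_mem _
    · exact ⟨c, h.hsign⟩
  rw [h1]
  simp [Nat.card_eq_fintype_card]

/-- `ρ` restricted to `M`. -/
noncomputable abbrev rM (ρ : X →* Equiv.Perm (Fin 126)) : ↥(MM ρ) →* Equiv.Perm (Fin 126) := ρ.comp (MM ρ).subtype

omit h in
theorem ker_rM : (rM ρ).ker = ρ.ker.subgroupOf (MM ρ) := by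
  ext x
  rfl

theorem F_le_range : F ≤ (rM ρ).range := by
  intro f hf
  obtain ⟨x, rfl⟩ := h.hFle hf
  have hx : x ∈ MM ρ := by
    show Equiv.Perm.sign (ρ x) = 1
    exact h.sign_F hf
  exact ⟨⟨x, hx⟩, rfl⟩

omit h in
theorem card_MM_eq : Nat.card (MM ρ) = Nat.card ρ.ker * Nat.card (rM ρ).range := by
  have h1 := Subgroup.card_mul_index (rM ρ).ker
  rw [Subgroup.index_ker] at h1
  rw [← h1, ker_rM]
  congr 1
  exact Nat.card_congr (Subgroup.subgroupOfEquivOfLe ker_le_MM).toEquiv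

theorem dvd_card_N : 3 * 2 ^ 13 ∣ Nat.card ρ.ker := by
  have h1 : 2 ^ 13 ∣ Nat.card ρ.ker := by
    rw [← h.hQcard]
    exact Subgroup.card_dvd_of_le h.hQker
  have h2 : 3 ∣ Nat.card ρ.ker := by
    have := dvd_card_of_mem h.hyker
    rwa [h.hy3] at this
  exact Nat.Coprime.mul_dvd_of_dvd_of_dvd (by norm_num) h2 h1

theorem counts : Nat.card ρ.ker = 3 * 2 ^ 13 ∧ Nat.card (rM ρ).range = 3265920 := by
  have h0 : 0 < Nat.card ρ.ker := Nat.card_pos
  have h1 : 3 * 2 ^ 13 ≤ Nat.card ρ.ker := Nat.le_of_dvd h0 h.dvd_card_N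
  have h2 : 3265920 ≤ Nat.card (rM ρ).range := by
    rw [← h.hFcard]
    exact Subgroup.card_le_of_le h.F_le_range
  have h3 : Nat.card X = Nat.card ρ.ker * Nat.card (rM ρ).range * 2 := by
    rw [← card_MM_eq, ← Subgroup.card_mul_index (MM ρ), h.index_MM]
  have h4 := h.hcard
  rw [h3] at h4
  generalize Nat.card ρ.ker = a at *
  generalize Nat.card (rM ρ).range = b at *
  norm_num at h1 h2 h4
  constructor
  · by_contra hne
    have h5 : 24577 ≤ a := by omega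
    have : 24577 * 3265920 ≤ a * b := Nat.mul_le_mul h5 h2
    omega
  · by_contra hne
    have h5 : 3265921 ≤ b := by omega
    have : 24576 * 3265921 ≤ a * b := Nat.mul_le_mul h1 h5
    omega

theorem F_eq_range : F = (rM ρ).range :=
  Subgroup.eq_of_le_of_card_ge h.F_le_range (by rw [h.hFcard, h.counts.2])

/-- The quotient. -/
theorem quot_iso : Nonempty (↥(MM ρ) ⧸ ρ.ker.subgroupOf (MM ρ) ≃* F) := by
  have e1 := QuotientGroup.quotientKerEquivRange (rM ρ)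
  have e2 : ↥(MM ρ) ⧸ ρ.ker.subgroupOf (MM ρ) ≃* ↥(MM ρ) ⧸ (rM ρ).ker := QuotientGroup.quotientMulEquivOfEq ker_rM.symm
  exact ⟨e2.trans (e1.trans (MulEquiv.subgroupCongr h.F_eq_range.symm))⟩

theorem mem_norm_y : y ∈ normalizer (Q : Set X) := by
  apply Cfsg.Agent.Lib.Fischer.M22.R3.mem_normalizer_of_map_le
  rintro _ ⟨q, hq, rfl⟩
  exact h.hyQ q hq

/-- `ρ.ker` normalizes `Q`. -/
theorem ker_le_norm : ρ.ker ≤ normalizer (Q : Set X) := by
  have h1 : 3 * 2 ^ 13 ∣ Nat.card ↥(normalizer (Q : Set X) ⊓ ρ.ker) := by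
    have a1 : 2 ^ 13 ∣ Nat.card ↥(normalizer (Q : Set X) ⊓ ρ.ker) := by
      rw [← h.hQcard]
      exact Subgroup.card_dvd_of_le (le_inf Subgroup.le_normalizer h.hQker)
    have a2 : 3 ∣ Nat.card ↥(normalizer (Q : Set X) ⊓ ρ.ker) := by
      have := dvd_card_of_mem (N := normalizer (Q : Set X) ⊓ ρ.ker) (y := y) ⟨h.mem_norm_y, h.hyker⟩
      rwa [h.hy3] at this
    exact Nat.Coprime.mul_dvd_of_dvd_of_dvd (by norm_num) a2 a1
  have h2 : normalizer (Q : Set X) ⊓ ρ.ker = ρ.ker := by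
    apply Subgroup.eq_of_le_of_card_ge inf_le_right
    rw [h.counts.1]
    exact Nat.le_of_dvd Nat.card_pos h1
  rw [← h2]
  exact inf_le_left

/-- `Q` in `ρ.ker`. -/
noncomputable abbrev QN (Q : Subgroup X) (ρ : X →* Equiv.Perm (Fin 126)) : Subgroup ρ.ker := Q.subgroupOf ρ.ker

theorem QN_normal : (QN Q ρ).Normal := by
  constructor
  intro n hn g
  rw [mem_subgroupOf] at hn ⊢
  exact (mem_normalizer_iff.1 (h.ker_le_norm g.2) _).1 hn

theorem card_QN : Nat.card (QN Q ρ) = 2 ^ 13 := by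
  rw [← h.hQcard]
  exact Nat.card_congr (Subgroup.subgroupOfEquivOfLe h.hQker).toEquiv

theorem card_quot : haveI := h.QN_normal; Nat.card (↥ρ.ker ⧸ QN Q ρ) = 3 := by
  haveI := h.QN_normal
  have h1 := Subgroup.card_eq_card_quotient_mul_card_subgroup (QN Q ρ)
  rw [h.counts.1, h.card_QN] at h1
  have h2 : 0 < 2 ^ 13 := by norm_num
  have h3 : Nat.card (↥ρ.ker ⧸ QN Q ρ) * 2 ^ 13 = 3 * 2 ^ 13 := h1.symm
  exact Nat.eq_of_mul_eq_mul_right h2 h3

/-- An element of the kernel with order a power of two lies in `Q`. -/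
theorem mem_Q_of_pow {n : X} (hn : n ∈ ρ.ker) {k : ℕ} (hk : n ^ 2 ^ k = 1) : n ∈ Q := by
  haveI := h.QN_normal
  have hc := h.card_quot
  let w : ↥ρ.ker ⧸ QN Q ρ := QuotientGroup.mk ⟨n, hn⟩
  have h1 : w ^ 3 = 1 := by
    rw [← hc]
    exact pow_card_eq_one'
  have h2 : w ^ 2 ^ k = 1 := by
    have : (⟨n, hn⟩ : ↥ρ.ker) ^ 2 ^ k = 1 := Subtype.ext hk
    show (QuotientGroup.mk ⟨n, hn⟩ : ↥ρ.ker ⧸ QN Q ρ) ^ 2 ^ k = 1
    rw [← QuotientGroup.mk_pow, this]
    rfl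
  have h3 : w = 1 := by
    have hcop : Nat.Coprime (2 ^ k) 3 := Nat.Coprime.pow_left _ (by norm_num)
    have h4 : w ^ Nat.gcd (2 ^ k) 3 = 1 := pow_gcd_eq_one.2 ⟨h2, h1⟩
    rw [hcop] at h4
    simpa using h4
  have h5 : (⟨n, hn⟩ : ↥ρ.ker) ∈ QN Q ρ := (QuotientGroup.eq_one_iff _).1 h3
  exact mem_subgroupOf.1 h5

/-- `Q` is normal. -/
theorem Q_normal : Q.Normal := by
  constructor
  intro q hq g
  have hn : g * q * g⁻¹ ∈ ρ.ker := (MonoidHom.normal_ker ρ).conj_mem q (h.hQker hq) g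
  apply h.mem_Q_of_pow hn (k := 13)
  have h1 : q ^ 2 ^ 13 = 1 := by
    have : (⟨q, hq⟩ : ↥Q) ^ Nat.card Q = 1 := pow_card_eq_one'
    rw [h.hQcard] at this
    exact congrArg Subtype.val this
  rw [conj_pow, h1]
  group

/-- The `2`-core lies in `Q`. -/
theorem pCore_le : pCore 2 X ≤ Q := by
  haveI := h.hF
  have hR : (pCore 2 X).Normal := Cfsg.Agent.Lib.Basic.PCore.pCore_normal _ _
  have hP : IsPGroup 2 (pCore 2 X) := Cfsg.Agent.Lib.Basic.PCore.pCore_isPGroup _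
  have hMn : (MM ρ).Normal := MonoidHom.normal_ker _
  -- the image in `F` of `R ∩ M` is trivial
  have step1 : ∀ x ∈ pCore 2 X, x ∈ MM ρ → ρ x = 1 := by
    let T : Subgroup F := ((pCore 2 X ⊓ MM ρ).map ρ).subgroupOf F
    have hT : T.Normal := by
      constructor
      rintro ⟨t, ht⟩ ht' ⟨f, hf⟩
      rw [mem_subgroupOf] at ht' ⊢
      obtain ⟨r, ⟨hr1, hr2⟩, rfl⟩ := ht'
      obtain ⟨⟨m, hm⟩, rfl⟩ := h.F_le_range hf
      refine ⟨m * r * m⁻¹, ⟨hR.conj_mem r hr1 m, hMn.conj_mem r hr2 m⟩, ?_⟩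
      simp [map_mul, map_inv]
    rcases hT.eq_bot_or_eq_top with hb | ht
    · intro x hx hm
      have h1 : ρ x ∈ F := by
        rw [h.F_eq_range]
        exact ⟨⟨x, hm⟩, rfl⟩
      have h2 : (⟨ρ x, h1⟩ : ↥F) ∈ T := by
        rw [mem_subgroupOf]
        exact ⟨x, ⟨hx, hm⟩, rfl⟩
      rw [hb, Subgroup.mem_bot] at h2
      exact congrArg Subtype.val h2
    · exfalso
      -- an element of order three in `F`
      haveI : Fact (Nat.Prime 3) := ⟨by norm_num⟩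
      have h3 : 3 ∣ Nat.card F := by rw [h.hFcard]; norm_num
      obtain ⟨f, hf⟩ := exists_prime_orderOf_dvd_card' 3 h3
      have h4 : f ∈ T := by
        rw [ht]
        trivial
      rw [mem_subgroupOf] at h4
      obtain ⟨r, ⟨hr1, -⟩, hr⟩ := h4
      obtain ⟨k, hk⟩ := (IsPGroup.iff_orderOf.1 hP) ⟨r, hr1⟩
      rw [Subgroup.orderOf_mk] at hk
      have h5 : r ^ 2 ^ k = 1 := by rw [← hk]; exact pow_orderOf_eq_one r
      have h6 : f ^ 2 ^ k = 1 := by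
        apply Subtype.ext
        show ((f : Equiv.Perm (Fin 126))) ^ 2 ^ k = 1
        rw [← hr, ← map_pow, h5, map_one]
      have h7 := orderOf_dvd_of_pow_eq_one h6
      rw [hf] at h7
      have h8 := (Nat.prime_dvd_prime_iff_eq (by norm_num) (by norm_num)).1 ((Nat.Prime.dvd_of_dvd_pow (by norm_num) h7))
      omega
  intro x hx
  -- `ρ x` centralizes `F`
  have hc : ρ x = 1 := by
    apply h.hFc
    intro f hf
    obtain ⟨⟨m, hm⟩, rfl⟩ := h.F_le_range hf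
    have h1 : x * m * x⁻¹ * m⁻¹ ∈ pCore 2 X := by
      have : x * m * x⁻¹ * m⁻¹ = x * (m * x⁻¹ * m⁻¹) := by group
      rw [this]
      exact mul_mem hx (hR.conj_mem _ (inv_mem hx) m)
    have h2 : x * m * x⁻¹ * m⁻¹ ∈ MM ρ := mul_mem (hMn.conj_mem m hm x) (inv_mem hm)
    have h3 := step1 _ h1 h2
    simp only [map_mul, map_inv] at h3
    have h4 : ρ x * ρ m * (ρ x)⁻¹ = ρ m := by
      rwa [mul_inv_eq_one] at h3
    rw [mul_inv_eq_iff_eq_mul] at h4
    exact h4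
  have hxN : x ∈ ρ.ker := MonoidHom.mem_ker.2 hc
  obtain ⟨k, hk⟩ := (IsPGroup.iff_orderOf.1 hP) ⟨x, hx⟩
  rw [Subgroup.orderOf_mk] at hk
  exact h.mem_Q_of_pow hxN (k := k) (by rw [← hk]; exact pow_orderOf_eq_one x)

/-- The centralizer of `Q` lies in `Q`. -/
theorem centralizer_le : centralizer (Q : Set X) ≤ Q := by
  haveI := h.QN_normal
  intro x hx
  have hcx : ∀ q ∈ Q, x * q = q * x := fun q hq => (mem_centralizer_iff.1 hx q hq).symm
  have hρ : ρ x = 1 := h.hcen h.Q_normal x hcx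
  have hxN : x ∈ ρ.ker := MonoidHom.mem_ker.2 hρ
  by_contra hxQ
  have hc := h.card_quot
  let w : ↥ρ.ker ⧸ QN Q ρ := QuotientGroup.mk ⟨x, hxN⟩
  have hw : w ≠ 1 := by
    intro h1
    have h5 : (⟨x, hxN⟩ : ↥ρ.ker) ∈ QN Q ρ := (QuotientGroup.eq_one_iff _).1 h1
    exact hxQ (mem_subgroupOf.1 h5)
  haveI : Fact (Nat.Prime 3) := ⟨by norm_num⟩
  have hv : (QuotientGroup.mk ⟨y, h.hyker⟩ : ↥ρ.ker ⧸ QN Q ρ) ∈ zpowers w := by
    apply mem_zpowers_of_prime_card (p := 3) hc hw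
  obtain ⟨e, he⟩ := hv
  -- `y = x ^ e * q`
  have he' : (QuotientGroup.mk ((⟨x, hxN⟩ : ↥ρ.ker) ^ e) : ↥ρ.ker ⧸ QN Q ρ) = QuotientGroup.mk ⟨y, h.hyker⟩ := by
    rw [QuotientGroup.mk_zpow]
    exact he
  rw [QuotientGroup.eq] at he'
  have hq : ((⟨x, hxN⟩ : ↥ρ.ker) ^ e)⁻¹ * ⟨y, h.hyker⟩ ∈ QN Q ρ := he'
  rw [mem_subgroupOf] at hq
  set q : X := ((((⟨x, hxN⟩ : ↥ρ.ker) ^ e)⁻¹ * ⟨y, h.hyker⟩ : ↥ρ.ker) : X) with hqdef
  have hq' : q = (x ^ e)⁻¹ * y := by
    simp [hqdef]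
  have hy : y = x ^ e * q := by
    rw [hq']
    group
  -- `x ^ e` centralizes `Q`
  have hce : ∀ u ∈ Q, x ^ e * u = u * x ^ e := by
    intro u hu
    have h1 : Commute x u := hcx u hu
    exact (h1.zpow_left e).eq
  apply h.hy1 q hq
  rw [hy, mul_inv_rev]
  have h2 : q * q1 * q⁻¹ ∈ Q := mul_mem (mul_mem hq h.hq1) (inv_mem hq)
  have h3 := hce _ h2
  calc q * q1 * q⁻¹ = x ^ e * (q * q1 * q⁻¹) * (x ^ e)⁻¹ := by rw [h3]; group
    _ = x ^ e * q * q1 * (q⁻¹ * (x ^ e)⁻¹) := by group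

/-- `F*`. -/
theorem fstar_eq : generalizedFittingSubgroup X = Q := by
  haveI : Fact (Nat.Prime 2) := ⟨Nat.prime_two⟩
  exact Cfsg.Agent.Lib.Fischer.M22.R3.fstar_eq_of (p := 2) Q h.Q_normal (IsPGroup.of_card h.hQcard) h.pCore_le h.centralizer_le

/-- The conclusion. -/
theorem concl_aux (hext : IsExtraspecial 2 ↥Q) {K : Type} [Field K] [Fintype K] (hK : Fintype.card K = 9)
    (eF : F ≃* PSU 4 K 3) : Concl X := by
  refine ⟨Q, h.Q_normal, h.fstar_eq, hext, h.hQcard, ρ.ker, MM ρ, MonoidHom.normal_ker _, MonoidHom.normal_ker _,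
    h.hQker, ker_le_MM, ?_, ⟨K, inferInstance, inferInstance, hK, ?_⟩, h.index_MM⟩
  · rw [h.counts.1, h.hQcard]
  · obtain ⟨e⟩ := h.quot_iso
    exact ⟨e.trans eF⟩

end Data

end abs

theorem Concl.of_equiv {X Y : Type*} [Group X] [Group Y] [Finite X] [Finite Y] (e : Y ≃* X) (h : Concl X) : Concl Y := by
  obtain ⟨Q, hQ, h1, h2, h3, N, M, hN, hM, h4, h5, h6, ⟨K, i1, i2, h7, ⟨e1⟩⟩, h8⟩ := h
  let f : X →* Y := e.symm.toMonoidHom
  have hf : Function.Bijective f := e.symm.bijective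
  refine ⟨Q.map f, hQ.map f hf.2, ?_, ?_, ?_, N.map f, M.map f, hN.map f hf.2, hM.map f hf.2, Subgroup.map_mono h4,
    Subgroup.map_mono h5, ?_, ⟨K, i1, i2, h7, ?_⟩, ?_⟩
  · rw [← h1]
    exact (Cfsg.Agent.Lib.Components.Transport.generalizedFittingSubgroup_map_equiv e.symm).symm
  · exact Cfsg.Agent.Lib.Fusion.GenExtra.isExtraspecial_congr (Q.equivMapOfInjective f hf.1) h2
  · rw [Subgroup.card_map_of_injective hf.1]
    exact h3
  · rw [Subgroup.card_map_of_injective hf.1, Subgroup.card_map_of_injective hf.1]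
    exact h6
  · haveI hNf : (N.map f).Normal := hN.map f hf.2
    let e2 : ↥M ≃* ↥(M.map f) := M.equivMapOfInjective f hf.1
    have e3 : (N.subgroupOf M).map e2.toMonoidHom = (N.map f).subgroupOf (M.map f) := by
      ext ⟨x, hx⟩
      constructor
      · rintro ⟨⟨a, ha⟩, ha2, ha3⟩
        rw [Subgroup.mem_subgroupOf]
        have : f a = x := congrArg Subtype.val ha3
        exact ⟨a, ha2, this⟩
      · intro hx2
        rw [Subgroup.mem_subgroupOf] at hx2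
        obtain ⟨a, ha, rfl⟩ := hx2
        have ham : a ∈ M := by
          obtain ⟨b, hb, hb2⟩ := hx
          have : b = a := hf.1 hb2
          exact this ▸ hb
        exact ⟨⟨a, ham⟩, ha, rfl⟩
    exact ⟨(QuotientGroup.congr _ _ e2 e3).symm.trans e1⟩
  · rw [Subgroup.index_map_of_bijective hf]
    exact h8

end Cfsg.Agent.Lib.Fischer.M24.C4
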