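/-
More data for the centralizer of a product of four commuting transpositions in `Fi24`: generated, checked by the kernel.
-/
import Mathlib

set_option autoImplicit false

namespace Cfsg.Agent.Lib.Fischer.M24.C4

/-- The block and the positions of the labels of the generators of the extraspecial group. -/
def qB : List (ℕ × ℕ × ℕ) := [(0, 1, 0), (2, 0, 2), (0, 2, 0), (2, 0, 1), (116, 0, 1), (70, 0, 3), (116, 0, 3), (70, 0, 1), (122, 0, 2), (78, 1, 0), (122, 1, 0), (78, 0, 2)]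

/-- The images of the labels of the generators under the element of order three. -/
def yP : List (ℕ × ℕ) := [(8001, 11589), (31929, 31846), (8003, 11589), (31929, 31925), (2663, 3153), (3514, 3321), (2663, 2524), (3514, 2521), (0, 15822), (17981, 1), (15821, 0), (1, 13671)]

/-- The words of these images: the first one. -/
def yPA : List (List ℕ) := [[3, 2, 1, 0, 11, 10, 4, 3, 2, 1, 0, 11], [2, 3, 8, 9, 0, 1, 2, 3, 8, 4, 3, 2, 1, 0, 11], [1, 0, 11, 10, 2, 1, 0, 11], [2, 3, 8, 9, 0, 1, 2, 3, 8, 4, 3, 2, 1, 0, 11], [11, 10, 1, 2, 3, 8, 4, 3, 2, 1, 0, 11], [11, 10, 9, 1, 2, 3, 8, 4, 3, 2, 1, 0, 11], [11, 10, 1, 2, 3, 8, 4, 3, 2, 1, 0, 11], [11, 10, 9, 1, 2, 3, 8, 4, 3, 2, 1, 0, 11], [7, 6, 5, 4, 3, 2, 1, 0, 11, 10, 8, 3, 4, 2, 3, 8, 5, 6, 4, 5, 3, 4, 2, 3, 8, 7, 6, 5, 4, 3, 2, 1,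 0, 11], [11, 1, 2, 3, 8, 9, 4, 3, 8, 2, 3, 4, 1, 2, 3, 8, 9, 5, 4, 0, 1, 2, 3, 8, 7, 6, 5, 4, 3, 2, 1, 0, 11], [11, 1, 2, 3, 8, 9, 4, 3, 8, 2, 3, 4, 1, 2, 3, 8, 9, 5, 4, 0, 1, 2, 3, 8, 6, 5, 4, 3, 2, 1, 0, 11], [6, 5, 4, 3, 2, 1, 0, 11, 10, 8, 3, 4, 2, 3, 8, 5, 6, 4, 5, 3, 4, 2, 3, 8, 7, 6, 5, 4, 3, 2, 1, 0, 11]]

/-- The words of these images: the second one. -/
def yPB : List (List ℕ) := [[11, 10, 0, 11], [3, 8, 9, 1, 2, 3, 8, 4, 3, 2, 1, 0, 11], [11, 10, 0, 11], [10, 3, 8, 9, 0, 1, 2, 3, 8, 4, 3, 2, 1, 0, 11], [1, 0, 11, 10, 3, 8, 4, 3, 2, 1, 0, 11], [11, 9, 0, 1, 2, 3, 8, 4, 3, 2, 1, 0, 11], [11, 0, 1, 2, 3, 8, 4, 3, 2, 1, 0, 11], [1, 0, 11, 10, 9, 3, 8, 4, 3, 2, 1, 0, 11], [1, 0, 11, 3, 8, 9, 4, 3, 8, 2, 3, 4, 1, 2, 3, 8, 9, 5, 4, 0, 1, 2, 3, 8, 6, 5, 4, 3, 2, 1, 0, 11], [6,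 5, 4, 3, 2, 1, 0, 11, 10, 8, 3, 4, 2, 3, 8, 5, 6, 4, 5, 3, 4, 2, 3, 8, 7, 6, 5, 4, 3, 2, 1, 0, 11], [7, 6, 5, 4, 3, 2, 1, 0, 11, 10, 8, 3, 4, 2, 3, 8, 5, 6, 4, 5, 3, 4, 2, 3, 8, 7, 6, 5, 4, 3, 2, 1, 0, 11], [1, 0, 11, 3, 8, 9, 4, 3, 8, 2, 3, 4, 1, 2, 3, 8, 9, 5, 4, 0, 1, 2, 3, 8, 7, 6, 5, 4, 3, 2, 1, 0, 11]]

end Cfsg.Agent.Lib.Fischer.M24.C4
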