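/-
Words in the explicit `Fi24`: criteria for equality on the bitsets of the base.
-/
import Mathlib
import Cfsg.Agent.Lib.Fischer.M24.E.Rows
import Cfsg.Agent.Lib.Fischer.M24.E.Base
import Cfsg.Agent.Lib.Fischer.M24.C4.Data
import Cfsg.Agent.Lib.Fischer.M24.C4.Data2

set_option autoImplicit false
set_option maxRecDepth 100000

namespace Cfsg.Agent.Lib.Fischer.M24.C4

open Cfsg Cfsg.Agent.Lib.Compute.BitNet Cfsg.Agent.Lib.Fischer.M24.Net Cfsg.Agent.Lib.Fischer.M24.Explicit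
open Cfsg.Agent.Lib.Fischer.Basic Cfsg.Agent.Lib.Fischer.Local
open Cfsg.Agent.Lib.Compute.ToddCoxeterCore

theorem Lw_rev (u : List ℕ) : Lw u.reverse = (Lw u)⁻¹ := Subtype.ext (El_reverse u)

/-- A label from a number. -/
def ofN (p : ℕ) : Fin NN := ⟨p % NN, Nat.mod_lt _ (by norm_num)⟩

theorem ofN_val {p : ℕ} (h : p < NN) : (ofN p : ℕ) = p := Nat.mod_eq_of_lt h

/-- The word of a transposition. -/
def tW (u : List ℕ) : List ℕ := u ++ [10] ++ u.reverse

theorem Lw_tW (u : List ℕ) : Lw (tW u) = Lw u * z2 * (Lw u)⁻¹ := by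
  unfold tW
  rw [Lw_append, Lw_append, Lw_rev, Lw_single]
  rfl

theorem φ_ofN {u : List ℕ} {p : ℕ} (hp : p < NN) (q : Fin NN) (h : posW NL u q = p) : φ (Lw u) q = ofN p := by
  apply Fin.ext
  rw [φ_Lw, h, ofN_val hp]

theorem t_word {u : List ℕ} {p : ℕ} (hp : p < NN) (h : posW NL u 31671 = p) : t (ofN p) = Lw (tW u) := by
  rw [Lw_tW, ← φ_ofN hp q0 h, t_eq]

/-- Equality on one bitset of the base. -/
noncomputable def fk (u v : List ℕ) (k : ℕ) : Bool := Nat.beq (wordA NL u (bsM k)) (wordA NL v (bsM k))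

/-- Equality on the bitsets of the base. -/
noncomputable def f5 (u v : List ℕ) : Bool := (List.range 5).all (fk u v)

theorem f5_sound {u v : List ℕ} (h : f5 u v = true) : Lw u = Lw v :=
  Lw_eq_base (fun k hk => Nat.eq_of_beq_eq_true (List.all_eq_true.1 h k hk))

theorem fk_sound {u v : List ℕ} (h : ∀ k, k < 5 → fk u v k = true) : Lw u = Lw v :=
  Lw_eq_base (fun k hk => Nat.eq_of_beq_eq_true (h k (List.mem_range.1 hk)))

theorem f5_comm {u v : List ℕ} (h : f5 (u ++ v) (v ++ u) = true) : Commute (Lw u) (Lw v) := by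
  have := f5_sound h
  rwa [Lw_append, Lw_append] at this

theorem Lw_ne_of_pt {u v : List ℕ} (p : ℕ) (hp : p < NN) (h : Nat.beq (posW NL u p) (posW NL v p) = false) : Lw u ≠ Lw v := by
  intro k
  have h1 : φ (Lw u) (ofN p) = φ (Lw v) (ofN p) := by rw [k]
  have h2 := congrArg Fin.val h1
  rw [φ_Lw, φ_Lw, ofN_val hp] at h2
  rw [h2, Nat.beq_refl] at h
  cases h

theorem Lw_F2 {u : List ℕ} (h : posW NL u 306936 = 306936) : Lw u ∈ F2 := by
  rw [mem_F2]
  apply Fin.ext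
  rw [Lw_val]
  exact (FF.elW_val u _).trans h

theorem Lw_not_F2 {u : List ℕ} (h : posW NL u 306936 = 306937) : Lw u ∉ F2 := by
  rw [not_mem_F2]
  apply Fin.ext
  rw [Lw_val]
  exact (FF.elW_val u _).trans h

end Cfsg.Agent.Lib.Fischer.M24.C4
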