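/-
The action of the centralizer of a product of four commuting transpositions on its 126 factorizations.
-/
import Mathlib
import Cfsg.Agent.Lib.Fischer.M24.C4.Words

set_option autoImplicit false
set_option maxRecDepth 100000
set_option Elab.async false

namespace Cfsg.Agent.Lib.Fischer.M24.C4

open Cfsg Cfsg.Agent.Lib.Compute.BitNet Cfsg.Agent.Lib.Fischer.M24.Net Cfsg.Agent.Lib.Fischer.M24.Explicit
open Cfsg.Agent.Lib.Fischer.Basic Cfsg.Agent.Lib.Fischer.Local
open Cfsg.Agent.Lib.Fischer.M22.Explicit (PMl)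
open Cfsg.Agent.Lib.Compute.PermCert (get allB allB_iff Elt permOf validB permOf_apply nth)
open Cfsg.Agent.Lib.Compute.ToddCoxeterCore

/-- The word of the product. -/
def zW : List ℕ := [10, 0, 2, 4]

/-- The product of four commuting transpositions. -/
noncomputable def z0 : G2 := Lw zW

theorem z0_eq : z0 = z2 * L 0 * L 2 * L 4 := by
  unfold z0 zW
  simp only [Lw_cons, Lw_nil, mul_one, mul_assoc]
  rfl

/-- The centralizer. -/
noncomputable def Γ : Subgroup G2 := Subgroup.centralizer ({z0} : Set G2)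

theorem mem_Γ {x : G2} : x ∈ Γ ↔ x * z0 = z0 * x := by
  unfold Γ
  rw [Subgroup.mem_centralizer_singleton_iff]

theorem conj_z0 {x : G2} (hx : x ∈ Γ) : x * z0 * x⁻¹ = z0 := by
  rw [mem_Γ.1 hx]
  group

/-! ### The labels -/

/-- A label of a block. -/
def labF (i m : ℕ) : Fin NN := ofN (labN i m)

theorem labs_chk : allB (fun k => Nat.blt (get 19 524287 BT k) NN) 504 = true := by decide +kernel

theorem labN_lt {i m : ℕ} (hi : i < 126) (hm : m < 4) : labN i m < NN := by
  have := (allB_iff _ _).1 labs_chk (4 * i + m) (by omega)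
  exact (Nat.blt_eq.mp this)

theorem labF_val {i m : ℕ} (hi : i < 126) (hm : m < 4) : (labF i m : ℕ) = labN i m := ofN_val (labN_lt hi hm)

/-- The list of the labels. -/
def labL : List ℕ := (List.range 504).map (get 19 524287 BT)

theorem labL_nodup : labL.Nodup := by
  apply Cfsg.Agent.Lib.Compute.PermCert.nodupB_iff
  decide +kernel

/-- A label, by its index. -/
def lab (c : ℕ) : ℕ := get 19 524287 BT c

theorem lab_inj {c c' : ℕ} (hc : c < 504) (hc' : c' < 504) (h : lab c = lab c') : c = c' := by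
  have hlen : labL.length = 504 := by simp [labL]
  exact (List.Nodup.getElem_inj_iff labL_nodup (i := c) (j := c') (hi := by omega) (hj := by omega)).1
    (by simpa [labL, lab] using h)

theorem labF_inj {i j m m' : ℕ} (hi : i < 126) (hj : j < 126) (hm : m < 4) (hm' : m' < 4) (h : labF i m = labF j m') :
    i = j ∧ m = m' := by
  have h1 : labN i m = labN j m' := by
    rw [← labF_val hi hm, ← labF_val hj hm', h]
  have h2 : lab (4 * i + m) = lab (4 * j + m') := h1
  have h3 := lab_inj (by omega) (by omega) h2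
  omega

/-- The bitset of a list. -/
def bitsOf : List ℕ → ℕ
  | [] => 0
  | a :: l => Nat.lor (Nat.shiftLeft 1 a) (bitsOf l)

theorem testBit_bitsOf (l : List ℕ) (p : ℕ) : (bitsOf l).testBit p = true ↔ p ∈ l := by
  induction l with
  | nil => simp [bitsOf]
  | cons a l ih =>
    have e : bitsOf (a :: l) = (1 <<< a) ||| bitsOf l := rfl
    rw [e, Nat.testBit_or, Bool.or_eq_true, ih, Nat.testBit_shiftLeft, List.mem_cons]
    by_cases h : p = a
    · subst h
      simp
    · have h2 : ¬ (p ≥ a ∧ (1 : ℕ).testBit (p - a) = true) := by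
        rintro ⟨h3, h4⟩
        have h5 : p - a ≠ 0 := by omega
        exact h5 (Nat.testBit_one_eq_true_iff_self_eq_zero.1 h4)
      simp [h, h2]

theorem fix_chk : Nat.land (fullS 306936) (Nat.xor (moved zW) (fullS 306936)) = bitsOf labL := by decide +kernel

/-- The labels commuting with the product are those of the blocks. -/
theorem fix_iff (p : Fin NN) : φ z0 p = p ↔ (p : ℕ) ∈ labL := by
  have hp : (p : ℕ) < 306938 := lt_of_lt_of_le p.2 (by norm_num [NN])
  have h2 := congrArg (fun x => x.testBit p) fix_chk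
  have e1 : ∀ P Q, Nat.land P Q = P &&& Q := fun _ _ => rfl
  have e2 : ∀ P Q, Nat.xor P Q = P ^^^ Q := fun _ _ => rfl
  simp only [e1, e2, Nat.testBit_and, Nat.testBit_xor, testBit_fullS] at h2
  have h3 : decide ((p : ℕ) < 306936) = true := decide_eq_true p.2
  rw [h3] at h2
  have key : (bitsOf labL).testBit p = !(moved zW).testBit p := by
    rw [← h2]
    simp
  have hm := testBit_moved zW hp
  have e3 : φ z0 p = p ↔ posW NL zW p = p := by
    constructor
    · intro h
      have := congrArg Fin.val h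
      rwa [show z0 = Lw zW from rfl, φ_Lw] at this
    · intro h
      apply Fin.ext
      rw [show z0 = Lw zW from rfl, φ_Lw]
      exact h
  rw [e3, ← testBit_bitsOf labL p, key]
  cases k : (moved zW).testBit p with
  | false =>
    constructor
    · intro _
      rfl
    · intro _
      by_contra hne
      rw [hm.2 hne] at k
      cases k
  | true =>
    constructor
    · intro h
      exact absurd h (hm.1 k)
    · intro h
      cases h

theorem fix_cover (p : Fin NN) (h : φ z0 p = p) : ∃ i, i < 126 ∧ ∃ m, m < 4 ∧ p = labF i m := by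
  have h5 := (fix_iff p).1 h
  simp only [labL, List.mem_map, List.mem_range] at h5
  obtain ⟨k, hk, hk2⟩ := h5
  refine ⟨k / 4, by omega, k % 4, by omega, ?_⟩
  apply Fin.ext
  rw [labF_val (by omega) (by omega)]
  have e3 : labN (k / 4) (k % 4) = get 19 524287 BT (4 * (k / 4) + k % 4) := rfl
  rw [e3, Nat.div_add_mod, hk2]

theorem lab_fix {i m : ℕ} (hi : i < 126) (hm : m < 4) : φ z0 (labF i m) = labF i m := by
  rw [fix_iff, labF_val hi hm]
  simp only [labL, List.mem_map, List.mem_range]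
  exact ⟨4 * i + m, by omega, rfl⟩

theorem lab_comm {i m : ℕ} (hi : i < 126) (hm : m < 4) : Commute z0 (t (labF i m)) :=
  (comm_t_iff' _ _).2 (lab_fix hi hm)

/-! ### The action on the blocks, on bit planes -/

/-- The labels of the blocks whose image has a bit. -/
def YB (f : ℕ → ℕ) (b : ℕ) : ℕ := bitsOf (((List.range 504).filter (fun c => (f (Nat.div c 4)).testBit b)).map lab)

theorem testBit_YB (f : ℕ → ℕ) (b : ℕ) {i m : ℕ} (hi : i < 126) (hm : m < 4) : (YB f b).testBit (labN i m) = (f i).testBit b := by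
  have e : labN i m = lab (4 * i + m) := rfl
  have hdiv : Nat.div (4 * i + m) 4 = i := by
    show (4 * i + m) / 4 = i
    omega
  apply Bool.eq_iff_iff.2
  rw [YB, testBit_bitsOf]
  simp only [List.mem_map, List.mem_filter, List.mem_range]
  constructor
  · rintro ⟨c, ⟨hc, hc2⟩, hc3⟩
    have h1 := lab_inj hc (by omega) (hc3.trans e)
    rw [h1, hdiv] at hc2
    exact hc2
  · intro h
    exact ⟨4 * i + m, ⟨by omega, by rw [hdiv]; exact h⟩, e.symm⟩

/-- The check of the action of a word on a plane. -/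
noncomputable def pl1 (w : List ℕ) (f : ℕ → ℕ) (b : ℕ) : Bool := Nat.beq (wordA NL w (YB (fun i => i) b)) (YB f b)

/-- The check of the action of a word. -/
noncomputable def plA (w : List ℕ) (f : ℕ → ℕ) : Bool := (List.range 7).all (pl1 w f)

theorem plA_spec {w : List ℕ} {f : ℕ → ℕ} (h : plA w f = true) : ∀ b, b < 7 → pl1 w f b = true :=
  fun b hb => List.all_eq_true.1 h b (List.mem_range.2 hb)

theorem pl_spec {w : List ℕ} {f : ℕ → ℕ} (h : ∀ b, b < 7 → pl1 w f b = true) {i m j m' : ℕ} (hi : i < 126) (hm : m < 4)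
    (hj : j < 126) (hm' : m' < 4) (hf : f i < 128) (e : posW NL w (labN i m) = labN j m') : f i = j := by
  apply Nat.eq_of_testBit_eq
  intro b
  by_cases hb : b < 7
  · have h1 := Nat.eq_of_beq_eq_true (h b hb)
    have h2 : (wordA NL w (YB (fun i => i) b)).testBit (labN i m) = (YB f b).testBit (labN i m) := by rw [h1]
    have a1 : (wordA NL w (YB (fun i => i) b)).testBit (labN i m) = (YB (fun i => i) b).testBit (posW NL w (labN i m)) :=
      testBit_wordA FF.hv w _ _
    rw [a1, e, testBit_YB _ _ hj hm', testBit_YB _ _ hi hm] at h2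
    exact h2.symm
  · have h2 : (128 : ℕ) ≤ 2 ^ b := by
      calc (128 : ℕ) = 2 ^ 7 := by norm_num
        _ ≤ 2 ^ b := Nat.pow_le_pow_right (by norm_num) (by omega)
    rw [Nat.testBit_eq_false_of_lt (lt_of_lt_of_le hf h2), Nat.testBit_eq_false_of_lt (by omega)]

/-! ### Tetrads -/

/-- A factorization of the product into four commuting transpositions. -/
def Tet (L : List G2) : Prop :=
  L.Nodup ∧ L.length = 4 ∧ (∀ a ∈ L, a ∈ D2) ∧ (∀ a ∈ L, ∀ b ∈ L, Commute a b) ∧ L.prod = z0

theorem pairwise_of_forall {l : List G2} (h : ∀ a ∈ l, ∀ b ∈ l, Commute a b) : l.Pairwise Commute := by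
  induction l with
  | nil => exact List.Pairwise.nil
  | cons a l ih =>
    refine List.Pairwise.cons ?_ (ih fun x hx y hy => h x (List.mem_cons_of_mem _ hx) y (List.mem_cons_of_mem _ hy))
    exact fun b hb => h a (List.mem_cons_self) b (List.mem_cons_of_mem _ hb)

theorem tet_erase {L : List G2} (h : Tet L) {d : G2} (hd : d ∈ L) : PMl D2 3 (d * z0) (L.erase d) := by
  obtain ⟨h1, h2, h3, h4, h5⟩ := h
  refine ⟨h1.erase d, ?_, fun a ha => h3 a (List.mem_of_mem_erase ha),
    fun a ha b hb => h4 a (List.mem_of_mem_erase ha) b (List.mem_of_mem_erase hb), ?_⟩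
  · rw [List.length_erase_of_mem hd, h2]
  · have hp := List.perm_cons_erase hd
    have h7 : d * (L.erase d).prod = z0 := by
      rw [← List.prod_cons, ← h5]
      exact (hp.prod_eq' (pairwise_of_forall h4)).symm
    rw [← h7, ← mul_assoc, tt2.sq d (h3 d hd), one_mul]

theorem tet_unique {L L' : List G2} (h : Tet L) (h' : Tet L') {d : G2} (hd : d ∈ L) (hd' : d ∈ L') (a : G2) :
    a ∈ L ↔ a ∈ L' := by
  have key := fp3_2 _ _ _ (tet_erase h hd) (tet_erase h' hd') a
  by_cases hne : a = d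
  · subst hne
    exact ⟨fun _ => hd', fun _ => hd⟩
  · rw [List.mem_erase_of_ne hne, List.mem_erase_of_ne hne] at key
    exact key

theorem tet_conj {L : List G2} (h : Tet L) {x : G2} (hx : x ∈ Γ) : Tet (L.map (MulAut.conj x)) := by
  obtain ⟨h1, h2, h3, h4, h5⟩ := h
  refine ⟨h1.map (MulAut.conj x).injective, by rw [List.length_map, h2], ?_, ?_, ?_⟩
  · intro a ha
    obtain ⟨b, hb, rfl⟩ := List.mem_map.1 ha
    exact D2_conj x b (h3 b hb)
  · intro a ha b hb
    obtain ⟨a', ha', rfl⟩ := List.mem_map.1 ha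
    obtain ⟨b', hb', rfl⟩ := List.mem_map.1 hb
    exact conj_comm2 (h4 a' ha' b' hb')
  · have := map_list_prod (MulAut.conj x) L
    rw [← this, h5, MulAut.conj_apply, conj_z0 hx]

theorem Tet.perm {L L' : List G2} (h : Tet L) (hp : L.Perm L') : Tet L' := by
  obtain ⟨h1, h2, h3, h4, h5⟩ := h
  refine ⟨hp.nodup_iff.1 h1, by rw [← hp.length_eq, h2], fun a ha => h3 a (hp.mem_iff.2 ha),
    fun a ha b hb => h4 a (hp.mem_iff.2 ha) b (hp.mem_iff.2 hb), ?_⟩
  rw [← h5]
  exact (hp.prod_eq' (pairwise_of_forall h4)).symm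

/-! ### The blocks -/

/-- The block `i`. -/
noncomputable def Bk (i : ℕ) : List G2 := [t (labF i 0), t (labF i 1), t (labF i 2), t (labF i 3)]

theorem mem_Bk {i : ℕ} {a : G2} : a ∈ Bk i ↔ ∃ m, m < 4 ∧ a = t (labF i m) := by
  simp only [Bk, List.mem_cons, List.not_mem_nil, or_false]
  constructor
  · rintro (h | h | h | h)
    · exact ⟨0, by norm_num, h⟩
    · exact ⟨1, by norm_num, h⟩
    · exact ⟨2, by norm_num, h⟩
    · exact ⟨3, by norm_num, h⟩
  · rintro ⟨m, hm, rfl⟩
    interval_cases m <;> simp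

/-- The reflection letters. -/
noncomputable def rr (a : ℕ) : G2 := Lw (tW (rU.getD a []))

theorem rr_chk : (List.range 8).all (fun a => Nat.blt (rL.getD a 0) NN &&
    Nat.beq (posW NL (rU.getD a []) 31671) (rL.getD a 0) && Nat.beq (posW NL zW (rL.getD a 0)) (rL.getD a 0)) = true := by
  decide +kernel

theorem rr_t {a : ℕ} (ha : a < 8) : rr a = t (ofN (rL.getD a 0)) := by
  have h := List.all_eq_true.1 rr_chk a (List.mem_range.2 ha)
  simp only [Bool.and_eq_true, Nat.blt_eq, Nat.beq_eq] at h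
  exact (t_word h.1.1 h.1.2).symm

theorem rr_Γ {a : ℕ} (ha : a < 8) : rr a ∈ Γ := by
  have h := List.all_eq_true.1 rr_chk a (List.mem_range.2 ha)
  simp only [Bool.and_eq_true, Nat.blt_eq, Nat.beq_eq] at h
  obtain ⟨⟨h1, h2⟩, h3⟩ := h
  rw [mem_Γ, rr_t ha]
  have h4 : Commute z0 (t (ofN (rL.getD a 0))) := by
    apply (comm_t_iff' _ _).2
    apply Fin.ext
    show ((φ (Lw zW) _ : Fin NN) : ℕ) = _
    rw [φ_Lw, ofN_val h1, h3]
  exact h4.eq.symm

theorem rr_F2 {a : ℕ} (ha : a < 8) : rr a ∉ F2 := by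
  have h : (List.range 8).all (fun a => Nat.beq (posW NL (tW (rU.getD a [])) 306936) 306937) = true := by decide +kernel
  exact Lw_not_F2 (Nat.eq_of_beq_eq_true (List.all_eq_true.1 h a (List.mem_range.2 ha)))

/-- The reflection letters on the blocks. -/
def reT (a i : ℕ) : ℕ := get 9 511 (RE.getD a ⟨0, 0⟩).f i

theorem re_lt_chk : (List.range 8).all (fun a => allB (fun i => Nat.blt (reT a i) 126) 126) = true := by decide +kernel

theorem re_lt {a i : ℕ} (ha : a < 8) (hi : i < 126) : reT a i < 126 :=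
  Nat.blt_eq.mp ((allB_iff _ _).1 (List.all_eq_true.1 re_lt_chk a (List.mem_range.2 ha)) i hi)

theorem re_pl0 : plA (tW (rU.getD 0 [])) (reT 0) = true := by decide +kernel
theorem re_pl1 : plA (tW (rU.getD 1 [])) (reT 1) = true := by decide +kernel
theorem re_pl2 : plA (tW (rU.getD 2 [])) (reT 2) = true := by decide +kernel
theorem re_pl3 : plA (tW (rU.getD 3 [])) (reT 3) = true := by decide +kernel
theorem re_pl4 : plA (tW (rU.getD 4 [])) (reT 4) = true := by decide +kernel
theorem re_pl5 : plA (tW (rU.getD 5 [])) (reT 5) = true := by decide +kernel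
theorem re_pl6 : plA (tW (rU.getD 6 [])) (reT 6) = true := by decide +kernel
theorem re_pl7 : plA (tW (rU.getD 7 [])) (reT 7) = true := by decide +kernel

theorem re_pl : ∀ a, a < 8 → plA (tW (rU.getD a [])) (reT a) = true := by
  intro a ha
  interval_cases a
  exacts [re_pl0, re_pl1, re_pl2, re_pl3, re_pl4, re_pl5, re_pl6, re_pl7]

theorem rr_blk {a i m : ℕ} (ha : a < 8) (hi : i < 126) (hm : m < 4) : ∃ m', m' < 4 ∧ φ (rr a) (labF i m) = labF (reT a i) m' := by
  have h1 : φ z0 (φ (rr a) (labF i m)) = φ (rr a) (labF i m) := by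
    rw [← Equiv.Perm.mul_apply, ← map_mul, (mem_Γ.1 (rr_Γ ha)).symm, map_mul, Equiv.Perm.mul_apply, lab_fix hi hm]
  obtain ⟨j, hj, m', hm', e⟩ := fix_cover _ h1
  have e2 : posW NL (tW (rU.getD a [])) (labN i m) = labN j m' := by
    have := congrArg Fin.val e
    rw [show rr a = Lw (tW (rU.getD a [])) from rfl, φ_Lw, labF_val hi hm, labF_val hj hm'] at this
    exact this
  have h3 := pl_spec (plA_spec (re_pl a ha)) hi hm hj hm' (lt_trans (re_lt ha hi) (by norm_num)) e2
  rw [h3]
  exact ⟨m', hm', e⟩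

/-- The tree of the blocks. -/
theorem tree_chk : (List.range 126).all (fun j => Nat.beq j 0 ||
    (Nat.blt (parL.getD j (0, 0)).1 j && Nat.blt (parL.getD j (0, 0)).2 8 &&
      Nat.beq (reT (parL.getD j (0, 0)).2 (parL.getD j (0, 0)).1) j)) = true := by
  decide +kernel

/-- The labels of the first block. -/
theorem T0_chk : labN 0 0 = lbl 10 ∧ labN 0 1 = lbl 0 ∧ labN 0 2 = lbl 2 ∧ labN 0 3 = lbl 4 := by decide +kernel

theorem T0_val : labN 0 0 = 31671 ∧ labN 0 1 = 11589 ∧ labN 0 2 = 8003 ∧ labN 0 3 = 8001 := by decide +kernel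

theorem t_lab0 : t (labF 0 0) = z2 ∧ t (labF 0 1) = L 0 ∧ t (labF 0 2) = L 2 ∧ t (labF 0 3) = L 4 := by
  have hl : ∀ {m x : ℕ}, m < 4 → labN 0 m = lbl x → labF 0 m = lbf x := by
    intro m x hm h
    apply Fin.ext
    rw [labF_val (by norm_num) hm, h]
    rfl
  have e0 : labF 0 0 = lbf 10 := hl (by norm_num) T0_chk.1
  have e1 : labF 0 1 = lbf 0 := hl (by norm_num) T0_chk.2.1
  have e2 : labF 0 2 = lbf 2 := hl (by norm_num) T0_chk.2.2.1
  have e3 : labF 0 3 = lbf 4 := hl (by norm_num) T0_chk.2.2.2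
  rw [e0, e1, e2, e3]
  exact ⟨t_lbf10, t_lbf0, t_lbf2, t_lbf4⟩

theorem labF_ne {i m m' : ℕ} (hi : i < 126) (hm : m < 4) (hm' : m' < 4) (h : m ≠ m') : t (labF i m) ≠ t (labF i m') :=
  fun k => h (labF_inj hi hi hm hm' (t_inj k)).2

theorem comm_letters : Commute z2 (L 0) ∧ Commute z2 (L 2) ∧ Commute z2 (L 4) := by
  have h : ∀ x, x ∈ [0, 2, 4] → Commute z2 (L x) := by
    intro x hx
    have hh : L x ∈ H2 := L_H2 (by
      simp only [List.mem_cons, List.not_mem_nil, or_false] at hx
      simp only [hL, List.mem_cons, List.not_mem_nil, or_false]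
      omega)
    exact (z2_comm_H hh).symm
  exact ⟨h 0 (by simp), h 2 (by simp), h 4 (by simp)⟩

theorem Bk_nodup {i : ℕ} (hi : i < 126) : (Bk i).Nodup := by
  unfold Bk
  simp only [List.nodup_cons, List.mem_cons, List.not_mem_nil, or_false, not_or, List.nodup_nil, and_true,
    not_false_eq_true]
  have n : ∀ {m m' : ℕ}, m < 4 → m' < 4 → m ≠ m' → t (labF i m) ≠ t (labF i m') := fun a b c => labF_ne hi a b c
  exact ⟨⟨n (by norm_num) (by norm_num) (by norm_num), n (by norm_num) (by norm_num) (by norm_num),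
    n (by norm_num) (by norm_num) (by norm_num)⟩, ⟨n (by norm_num) (by norm_num) (by norm_num),
    n (by norm_num) (by norm_num) (by norm_num)⟩, n (by norm_num) (by norm_num) (by norm_num)⟩

theorem Bk0_tet : Tet (Bk 0) := by
  obtain ⟨e0, e1, e2, e3⟩ := t_lab0
  have hB : Bk 0 = [z2, L 0, L 2, L 4] := by
    unfold Bk
    rw [e0, e1, e2, e3]
  refine ⟨Bk_nodup (by norm_num), by rw [hB]; rfl, ?_, ?_, ?_⟩
  · intro a ha
    rw [mem_Bk] at ha
    obtain ⟨m, -, rfl⟩ := ha
    exact t_mem _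
  · rw [hB]
    obtain ⟨c0, c2, c4⟩ := comm_letters
    intro a ha b hb
    simp only [List.mem_cons, List.not_mem_nil, or_false] at ha hb
    have c02 := comm_L0_L2
    have c04 := comm_L0_L4
    have c24 := comm_L2_L4
    rcases ha with rfl | rfl | rfl | rfl <;> rcases hb with rfl | rfl | rfl | rfl <;>
      first
        | exact Commute.refl _
        | assumption
        | (apply Commute.symm; assumption)
  · rw [hB, z0_eq]
    simp [List.prod_cons, mul_assoc]

/-- The blocks are factorizations of the product. -/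
theorem Bk_tet : ∀ i, i < 126 → Tet (Bk i) := by
  intro j
  induction j using Nat.strong_induction_on with
  | _ j ih =>
    intro hj
    have h := List.all_eq_true.1 tree_chk j (List.mem_range.2 hj)
    by_cases h0 : j = 0
    · subst h0
      exact Bk0_tet
    have h0' : Nat.beq j 0 = false := by
      cases k : Nat.beq j 0 with
      | false => rfl
      | true => exact absurd (Nat.eq_of_beq_eq_true k) h0
    rw [h0', Bool.false_or, Bool.and_eq_true, Bool.and_eq_true, Nat.blt_eq, Nat.blt_eq] at h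
    obtain ⟨⟨h1, h2⟩, h3⟩ := h
    have h3' := Nat.eq_of_beq_eq_true h3
    set i := (parL.getD j (0, 0)).1 with hi
    set a := (parL.getD j (0, 0)).2 with ha
    have hT := tet_conj (ih i h1 (by omega)) (rr_Γ h2)
    have hsub : (Bk i).map (MulAut.conj (rr a)) ⊆ Bk j := by
      intro x hx
      obtain ⟨y, hy, rfl⟩ := List.mem_map.1 hx
      obtain ⟨m, hm, rfl⟩ := mem_Bk.1 hy
      obtain ⟨m', hm', e⟩ := rr_blk h2 (by omega : i < 126) hm
      rw [h3'] at e
      refine mem_Bk.2 ⟨m', hm', ?_⟩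
      rw [MulAut.conj_apply, t_conj, e]
    have hlen : (Bk j).length = 4 := rfl
    have hp : ((Bk i).map (MulAut.conj (rr a))).Perm (Bk j) := by
      apply List.Subperm.perm_of_length_le (List.subperm_of_subset hT.1 hsub)
      rw [hT.2.1, hlen]
    exact hT.perm hp

/-! ### The action on the blocks -/

/-- Blocks go to blocks. -/
theorem blk_map {x : G2} (hx : x ∈ Γ) {i : ℕ} (hi : i < 126) :
    ∃ j, j < 126 ∧ ∀ m, m < 4 → ∃ m', m' < 4 ∧ φ x (labF i m) = labF j m' := by
  have hT := tet_conj (Bk_tet i hi) hx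
  have h0 : φ z0 (φ x (labF i 0)) = φ x (labF i 0) := by
    have h1 : Commute z0 (t (labF i 0)) := by
      obtain ⟨-, -, -, h4, h5⟩ := Bk_tet i hi
      rw [← h5]
      apply Commute.symm
      apply Commute.list_prod_right
      intro b hb
      exact h4 _ (by simp [Bk]) b hb
    have h2 : Commute z0 (t (φ x (labF i 0))) := by
      rw [← t_conj, ← conj_z0 hx]
      exact conj_comm2 h1
    exact (comm_t_iff' _ _).1 h2
  obtain ⟨j, hj, m0, hm0, e⟩ := fix_cover _ h0
  refine ⟨j, hj, ?_⟩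
  intro m hm
  have hd : t (labF j m0) ∈ (Bk i).map (MulAut.conj x) := by
    rw [← e, ← t_conj]
    exact List.mem_map.2 ⟨t (labF i 0), by simp [Bk], by rw [MulAut.conj_apply]⟩
  have hd' : t (labF j m0) ∈ Bk j := mem_Bk.2 ⟨m0, hm0, rfl⟩
  have key := (tet_unique hT (Bk_tet j hj) hd hd' (t (φ x (labF i m)))).1 (by
    rw [← t_conj]
    exact List.mem_map.2 ⟨_, mem_Bk.2 ⟨m, hm, rfl⟩, by rw [MulAut.conj_apply]⟩)
  obtain ⟨m', hm', e'⟩ := mem_Bk.1 key
  exact ⟨m', hm', t_inj e'⟩

open _root_.Classical in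
/-- The block of a label. -/
noncomputable def bk (p : Fin NN) : ℕ :=
  if h : ∃ i, i < 126 ∧ ∃ m, m < 4 ∧ p = labF i m then h.choose else 0

theorem bk_lab {i m : ℕ} (hi : i < 126) (hm : m < 4) : bk (labF i m) = i := by
  have h : ∃ i', i' < 126 ∧ ∃ m', m' < 4 ∧ labF i m = labF i' m' := ⟨i, hi, m, hm, rfl⟩
  unfold bk
  rw [dif_pos h]
  obtain ⟨h1, m', hm', h2⟩ := h.choose_spec
  exact (labF_inj hi h1 hm hm' h2).1.symm

theorem bk_lt (p : Fin NN) : bk p < 126 := by
  unfold bk
  split_ifs with h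
  · exact h.choose_spec.1
  · norm_num

/-- The action of an element. -/
noncomputable def rho0 (x : G2) (i : ℕ) : ℕ := bk (φ x (labF i 0))

theorem rho0_spec {x : G2} (hx : x ∈ Γ) {i : ℕ} (hi : i < 126) {m : ℕ} (hm : m < 4) :
    bk (φ x (labF i m)) = rho0 x i := by
  obtain ⟨j, hj, h⟩ := blk_map hx hi
  obtain ⟨m1, hm1, e1⟩ := h m hm
  obtain ⟨m2, hm2, e2⟩ := h 0 (by norm_num)
  unfold rho0
  rw [e1, e2, bk_lab hj hm1, bk_lab hj hm2]

theorem rho0_mem {x : G2} (hx : x ∈ Γ) {i : ℕ} (hi : i < 126) {m : ℕ} (hm : m < 4) :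
    ∃ m', m' < 4 ∧ φ x (labF i m) = labF (rho0 x i) m' := by
  obtain ⟨j, hj, h⟩ := blk_map hx hi
  obtain ⟨m1, hm1, e1⟩ := h m hm
  obtain ⟨m2, hm2, e2⟩ := h 0 (by norm_num)
  have e3 : rho0 x i = j := by
    unfold rho0
    rw [e2, bk_lab hj hm2]
  rw [e3]
  exact ⟨m1, hm1, e1⟩

theorem rho0_lt (x : G2) (i : ℕ) : rho0 x i < 126 := bk_lt _

theorem rho0_eq {x : G2} (hx : x ∈ Γ) {i j m m' : ℕ} (hi : i < 126) (hj : j < 126) (hm : m < 4) (hm' : m' < 4)
    (h : φ x (labF i m) = labF j m') : rho0 x i = j := by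
  rw [← rho0_spec hx hi hm, h, bk_lab hj hm']

theorem rho0_one {i : ℕ} (hi : i < 126) : rho0 1 i = i := by
  apply rho0_eq (one_mem _) hi hi (m := 0) (m' := 0) (by norm_num) (by norm_num)
  rw [map_one]
  rfl

theorem rho0_mul {x y : G2} (hx : x ∈ Γ) (hy : y ∈ Γ) {i : ℕ} (hi : i < 126) :
    rho0 (x * y) i = rho0 x (rho0 y i) := by
  obtain ⟨m', hm', e⟩ := rho0_mem hy hi (m := 0) (by norm_num)
  have h1 : rho0 (x * y) i = bk (φ x (φ y (labF i 0))) := by
    unfold rho0
    rw [map_mul, Equiv.Perm.mul_apply]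
  rw [h1, e]
  exact rho0_spec hx (rho0_lt y i) hm'

/-- The action on the blocks. -/
noncomputable def ρΓ : ↥Γ →* Equiv.Perm (Fin 126) where
  toFun x :=
    { toFun := fun i => ⟨rho0 x i, rho0_lt _ _⟩
      invFun := fun i => ⟨rho0 (x⁻¹ : ↥Γ) i, rho0_lt _ _⟩
      left_inv := fun i => by
        apply Fin.ext
        show rho0 ((x⁻¹ : ↥Γ) : G2) (rho0 x i) = i
        rw [← rho0_mul (x⁻¹ : ↥Γ).2 x.2 i.2]
        have : (((x⁻¹ : ↥Γ) : G2) * (x : G2)) = 1 := by simp
        rw [this, rho0_one i.2]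
      right_inv := fun i => by
        apply Fin.ext
        show rho0 x (rho0 ((x⁻¹ : ↥Γ) : G2) i) = i
        rw [← rho0_mul x.2 (x⁻¹ : ↥Γ).2 i.2]
        have : ((x : G2) * ((x⁻¹ : ↥Γ) : G2)) = 1 := by simp
        rw [this, rho0_one i.2] }
  map_one' := by
    ext i
    exact rho0_one i.2
  map_mul' x y := by
    ext i
    exact rho0_mul x.2 y.2 i.2

theorem ρΓ_val (x : ↥Γ) (i : Fin 126) : ((ρΓ x i : Fin 126) : ℕ) = rho0 x i := rfl

theorem rho0_of_pl {w : List ℕ} {f : ℕ → ℕ} (hΓ : Lw w ∈ Γ) (h : ∀ b, b < 7 → pl1 w f b = true) {i : ℕ} (hi : i < 126)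
    (hf : f i < 128) : rho0 (Lw w) i = f i := by
  obtain ⟨m', hm', e⟩ := rho0_mem hΓ hi (m := 0) (by norm_num)
  have e2 : posW NL w (labN i 0) = labN (rho0 (Lw w) i) m' := by
    have := congrArg Fin.val e
    rw [φ_Lw, labF_val hi (by norm_num), labF_val (rho0_lt _ _) hm'] at this
    exact this
  exact (pl_spec h hi (by norm_num) (rho0_lt _ _) hm' hf e2).symm

theorem rho0_z0 {i : ℕ} (hi : i < 126) : rho0 z0 i = i :=
  rho0_eq (mem_Γ.2 rfl) hi hi (m := 0) (m' := 0) (by norm_num) (by norm_num) (lab_fix hi (by norm_num))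

end Cfsg.Agent.Lib.Fischer.M24.C4
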