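/-
The computations for the centralizer of a product of four commuting transpositions in `Fi24`.
-/
import Mathlib
import Cfsg.Agent.Lib.Fischer.M24.C4.Rho

set_option autoImplicit false
set_option maxRecDepth 100000
set_option Elab.async false

namespace Cfsg.Agent.Lib.Fischer.M24.C4

open Cfsg Cfsg.Agent.Lib.Compute.BitNet Cfsg.Agent.Lib.Fischer.M24.Net Cfsg.Agent.Lib.Fischer.M24.Explicit
open Cfsg.Agent.Lib.Compute.PermCert (get allB allB_iff Elt permOf validB permOf_apply nth)
open Cfsg.Agent.Lib.Compute.ToddCoxeterCore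

/-- The block of a generator of the extraspecial group. -/
def qi (k : ℕ) : ℕ := (qB.getD k (0, 0, 0)).1

/-- The position of the first label of a generator. -/
def qm (k : ℕ) : ℕ := (qB.getD k (0, 0, 0)).2.1

/-- The position of the second label of a generator. -/
def qn (k : ℕ) : ℕ := (qB.getD k (0, 0, 0)).2.2

/-- The first label of a generator. -/
def la (k : ℕ) : ℕ := labN (qi k) (qm k)

/-- The second label of a generator. -/
def lb (k : ℕ) : ℕ := labN (qi k) (qn k)

/-- The word of a generator of the extraspecial group. -/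
def qW (k : ℕ) : List ℕ := tW (qUA.getD k []) ++ tW (qUB.getD k [])

/-- The partner of an index. -/
def prk (k : ℕ) : ℕ := Nat.xor k 1

/-- The commutator of two generators. -/
def cm (j k : ℕ) : List ℕ := bif Nat.beq (Nat.xor j 1) k then zW else []

theorem z_chk : f5 (zW ++ zW) [] = true := by decide +kernel

theorem z_ne_chk : Nat.beq (posW NL zW 3) (posW NL [] 3) = false := by decide +kernel

theorem z_F2 : Nat.beq (posW NL zW 306936) 306936 = true := by decide +kernel

theorem q_lab : (List.range 12).all (fun k => Nat.blt (qi k) 126 && Nat.blt (qm k) 4 && Nat.blt (qn k) 4 && !(Nat.beq (qm k) (qn k)) &&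
    Nat.beq (posW NL (qUA.getD k []) 31671) (la k) && Nat.beq (posW NL (qUB.getD k []) 31671) (lb k) &&
    Nat.beq (posW NL (qW k) 306936) 306936) = true := by decide +kernel

/-- The check of the commutator of two generators, on the labels of the second one. -/
noncomputable def qcB (j k : ℕ) : Bool :=
  frc (posW NL (qW j) (la k)) fun A => frc (posW NL (qW j) (lb k)) fun B =>
    bif Nat.beq (Nat.xor j 1) k then (!(Nat.beq A (la k)) && !(Nat.beq A (lb k)) && !(Nat.beq B (la k)) && !(Nat.beq B (lb k)))
    else ((Nat.beq A (la k) && Nat.beq B (lb k)) || (Nat.beq A (lb k) && Nat.beq B (la k)))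

/-- The word of the element of order three. -/
def yW : List ℕ := yU.flatMap tW

theorem y_lab : yU.all (fun v => frc (posW NL v 31671) fun p => Nat.blt p NN && Nat.beq (posW NL zW p) p) = true := by decide +kernel

theorem y_F2 : Nat.beq (posW NL yW 306936) 306936 = true := by decide +kernel

/-- The word of the conjugate of a generator, from the labels. -/
def pW (k : ℕ) : List ℕ := tW (yPA.getD k []) ++ tW (yPB.getD k [])

/-- The conjugate by `y`. -/
def yRhs (k : ℕ) : List ℕ := (bif Nat.beq (yQ.getD k ([], 0)).2 1 then zW else []) ++ (yQ.getD k ([], 0)).1.flatMap qW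

theorem yP_chk : (List.range 12).all (fun k => Nat.blt (yP.getD k (0, 0)).1 NN && Nat.blt (yP.getD k (0, 0)).2 NN &&
    Nat.beq (posW NL (yPA.getD k []) 31671) (yP.getD k (0, 0)).1 && Nat.beq (posW NL (yPB.getD k []) 31671) (yP.getD k (0, 0)).2 &&
    (yQ.getD k ([], 0)).1.all (fun j => Nat.blt j 12)) = true := by decide +kernel

/-- The check of the images of the labels of a generator under `y`. -/
noncomputable def yIB (k : ℕ) : Bool :=
  Nat.beq (posW NL yW (la k)) (yP.getD k (0, 0)).1 && Nat.beq (posW NL yW (lb k)) (yP.getD k (0, 0)).2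

theorem y_wit : Nat.beq (posW NL (pW 0) 16) (posW NL (qW 0) 16) = false ∧
    Nat.beq (posW NL (pW 0) 16) (posW NL (zW ++ qW 0) 16) = false := by decide +kernel

theorem q0_chk : f5 (qW 0) [0, 10] = true := by decide +kernel

theorem c_basic : f5 (cW ++ zW) (zW ++ cW) = true ∧ Nat.beq (posW NL cW 306936) 306936 = true := by decide +kernel

theorem c_lt : allB (fun i => Nat.blt (get 9 511 cE.f i) 126) 126 = true := by decide +kernel

theorem c_pl : plA cW (get 9 511 cE.f) = true := by decide +kernel

/-- The action of a word in the reflection letters. -/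
def tw : List ℕ → ℕ → ℕ
  | [], i => i
  | a :: u, i => get 9 511 (RE.getD a ⟨0, 0⟩).f (tw u i)

theorem pg_chk : (List.range 3).all (fun j => (Pg.getD j []).all (fun a => Nat.blt a 8) &&
    Nat.beq (Nat.mod (Pg.getD j []).length 2) 0 &&
    allB (fun i => Nat.beq (tw (Pg.getD j []) i) (get 9 511 (PE.getD j ⟨0, 0⟩).f i)) 126) = true := by decide +kernel

/-- Transpositions. -/
noncomputable def swF : List (ℕ × ℕ) → ℕ → ℕ
  | [], i => i
  | p :: l, i => frc (swF l i) fun k => bif Nat.beq k p.1 then p.2 else bif Nat.beq k p.2 then p.1 else k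

theorem sw_chk : swL.all (fun p => Nat.blt p.1 126 && Nat.blt p.2 126 && !(Nat.beq p.1 p.2)) = true ∧ swL.length = 57 ∧
    allB (fun i => Nat.beq (swF swL i) (get 9 511 cE.f i)) 126 = true := by decide +kernel

end Cfsg.Agent.Lib.Fischer.M24.C4
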