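/-
The conjugates of the generators of the extraspecial group by the element of order three.
-/
import Mathlib
import Cfsg.Agent.Lib.Fischer.M24.C4.Chk

set_option autoImplicit false
set_option maxRecDepth 100000
set_option Elab.async false

namespace Cfsg.Agent.Lib.Fischer.M24.C4

open Cfsg Cfsg.Agent.Lib.Compute.BitNet Cfsg.Agent.Lib.Fischer.M24.Net Cfsg.Agent.Lib.Fischer.M24.Explicit

theorem yE0 : f5 (pW 0) (yRhs 0) = true := by decide +kernel
theorem yE1 : f5 (pW 1) (yRhs 1) = true := by decide +kernel
theorem yE2 : f5 (pW 2) (yRhs 2) = true := by decide +kernel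
theorem yE3 : f5 (pW 3) (yRhs 3) = true := by decide +kernel
theorem yE4 : f5 (pW 4) (yRhs 4) = true := by decide +kernel
theorem yE5 : f5 (pW 5) (yRhs 5) = true := by decide +kernel
theorem yE6 : f5 (pW 6) (yRhs 6) = true := by decide +kernel
theorem yE7 : f5 (pW 7) (yRhs 7) = true := by decide +kernel
theorem yE8 : f5 (pW 8) (yRhs 8) = true := by decide +kernel
theorem yE9 : f5 (pW 9) (yRhs 9) = true := by decide +kernel
theorem yE10 : f5 (pW 10) (yRhs 10) = true := by decide +kernel
theorem yE11 : f5 (pW 11) (yRhs 11) = true := by decide +kernel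

theorem yE_all : ∀ k, k < 12 → f5 (pW k) (yRhs k) = true := by
  intro k hk
  interval_cases k
  exacts [yE0, yE1, yE2, yE3, yE4, yE5, yE6, yE7, yE8, yE9, yE10, yE11]

end Cfsg.Agent.Lib.Fischer.M24.C4
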