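/-
The generators of the extraspecial group act trivially on the blocks, and their commutators.
-/
import Mathlib
import Cfsg.Agent.Lib.Fischer.M24.C4.Chk

set_option autoImplicit false
set_option maxRecDepth 100000
set_option Elab.async false

namespace Cfsg.Agent.Lib.Fischer.M24.C4

open Cfsg Cfsg.Agent.Lib.Compute.BitNet Cfsg.Agent.Lib.Fischer.M24.Net Cfsg.Agent.Lib.Fischer.M24.Explicit

theorem q_pl0 : plA (qW 0) (fun i => i) = true := by decide +kernel
theorem q_pl1 : plA (qW 1) (fun i => i) = true := by decide +kernel
theorem q_pl2 : plA (qW 2) (fun i => i) = true := by decide +kernel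
theorem q_pl3 : plA (qW 3) (fun i => i) = true := by decide +kernel
theorem q_pl4 : plA (qW 4) (fun i => i) = true := by decide +kernel
theorem q_pl5 : plA (qW 5) (fun i => i) = true := by decide +kernel
theorem q_pl6 : plA (qW 6) (fun i => i) = true := by decide +kernel
theorem q_pl7 : plA (qW 7) (fun i => i) = true := by decide +kernel
theorem q_pl8 : plA (qW 8) (fun i => i) = true := by decide +kernel
theorem q_pl9 : plA (qW 9) (fun i => i) = true := by decide +kernel
theorem q_pl10 : plA (qW 10) (fun i => i) = true := by decide +kernel
theorem q_pl11 : plA (qW 11) (fun i => i) = true := by decide +kernel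

theorem q_pl : ∀ k, k < 12 → plA (qW k) (fun i => i) = true := by
  intro k hk
  interval_cases k
  exacts [q_pl0, q_pl1, q_pl2, q_pl3, q_pl4, q_pl5, q_pl6, q_pl7, q_pl8, q_pl9, q_pl10, q_pl11]

theorem qc0 : (List.range 12).all (fun k => Nat.ble k 0 || qcB 0 k) = true := by decide +kernel
theorem qc1 : (List.range 12).all (fun k => Nat.ble k 1 || qcB 1 k) = true := by decide +kernel
theorem qc2 : (List.range 12).all (fun k => Nat.ble k 2 || qcB 2 k) = true := by decide +kernel
theorem qc3 : (List.range 12).all (fun k => Nat.ble k 3 || qcB 3 k) = true := by decide +kernel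
theorem qc4 : (List.range 12).all (fun k => Nat.ble k 4 || qcB 4 k) = true := by decide +kernel
theorem qc5 : (List.range 12).all (fun k => Nat.ble k 5 || qcB 5 k) = true := by decide +kernel
theorem qc6 : (List.range 12).all (fun k => Nat.ble k 6 || qcB 6 k) = true := by decide +kernel
theorem qc7 : (List.range 12).all (fun k => Nat.ble k 7 || qcB 7 k) = true := by decide +kernel
theorem qc8 : (List.range 12).all (fun k => Nat.ble k 8 || qcB 8 k) = true := by decide +kernel
theorem qc9 : (List.range 12).all (fun k => Nat.ble k 9 || qcB 9 k) = true := by decide +kernel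
theorem qc10 : (List.range 12).all (fun k => Nat.ble k 10 || qcB 10 k) = true := by decide +kernel

theorem qc_all : ∀ j, j < 11 → (List.range 12).all (fun k => Nat.ble k j || qcB j k) = true := by
  intro j hj
  interval_cases j
  exacts [qc0, qc1, qc2, qc3, qc4, qc5, qc6, qc7, qc8, qc9, qc10]

end Cfsg.Agent.Lib.Fischer.M24.C4
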