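/-
The element of order three: its cube, its action on the blocks, its action on the labels of the generators.
-/
import Mathlib
import Cfsg.Agent.Lib.Fischer.M24.C4.Chk

set_option autoImplicit false
set_option maxRecDepth 100000
set_option Elab.async false

namespace Cfsg.Agent.Lib.Fischer.M24.C4

open Cfsg Cfsg.Agent.Lib.Compute.BitNet Cfsg.Agent.Lib.Fischer.M24.Net Cfsg.Agent.Lib.Fischer.M24.Explicit

theorem y3_0 : fk (yW ++ yW ++ yW) [] 0 = true := by decide +kernel
theorem y3_1 : fk (yW ++ yW ++ yW) [] 1 = true := by decide +kernel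
theorem y3_2 : fk (yW ++ yW ++ yW) [] 2 = true := by decide +kernel
theorem y3_3 : fk (yW ++ yW ++ yW) [] 3 = true := by decide +kernel
theorem y3_4 : fk (yW ++ yW ++ yW) [] 4 = true := by decide +kernel

theorem y3_all : ∀ k, k < 5 → fk (yW ++ yW ++ yW) [] k = true := by
  intro k hk
  interval_cases k
  exacts [y3_0, y3_1, y3_2, y3_3, y3_4]

theorem y_pl0 : pl1 yW (fun i => i) 0 = true := by decide +kernel
theorem y_pl1 : pl1 yW (fun i => i) 1 = true := by decide +kernel
theorem y_pl2 : pl1 yW (fun i => i) 2 = true := by decide +kernel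
theorem y_pl3 : pl1 yW (fun i => i) 3 = true := by decide +kernel
theorem y_pl4 : pl1 yW (fun i => i) 4 = true := by decide +kernel
theorem y_pl5 : pl1 yW (fun i => i) 5 = true := by decide +kernel
theorem y_pl6 : pl1 yW (fun i => i) 6 = true := by decide +kernel

theorem y_pl : ∀ b, b < 7 → pl1 yW (fun i => i) b = true := by
  intro b hb
  interval_cases b
  exacts [y_pl0, y_pl1, y_pl2, y_pl3, y_pl4, y_pl5, y_pl6]

theorem yI0 : yIB 0 = true := by decide +kernel
theorem yI1 : yIB 1 = true := by decide +kernel
theorem yI2 : yIB 2 = true := by decide +kernel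
theorem yI3 : yIB 3 = true := by decide +kernel
theorem yI4 : yIB 4 = true := by decide +kernel
theorem yI5 : yIB 5 = true := by decide +kernel
theorem yI6 : yIB 6 = true := by decide +kernel
theorem yI7 : yIB 7 = true := by decide +kernel
theorem yI8 : yIB 8 = true := by decide +kernel
theorem yI9 : yIB 9 = true := by decide +kernel
theorem yI10 : yIB 10 = true := by decide +kernel
theorem yI11 : yIB 11 = true := by decide +kernel

theorem yI_all : ∀ k, k < 12 → yIB k = true := by
  intro k hk
  interval_cases k
  exacts [yI0, yI1, yI2, yI3, yI4, yI5, yI6, yI7, yI8, yI9, yI10, yI11]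

end Cfsg.Agent.Lib.Fischer.M24.C4
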