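/-
The order of the centralizer of a product of four commuting transpositions.
-/
import Mathlib
import Cfsg.Agent.Lib.Fischer.M24.C4.Rho

set_option autoImplicit false
set_option maxRecDepth 100000
set_option Elab.async false

namespace Cfsg.Agent.Lib.Fischer.M24.C4

open Cfsg Cfsg.Agent.Lib.Compute.BitNet Cfsg.Agent.Lib.Fischer.M24.Net Cfsg.Agent.Lib.Fischer.M24.Explicit
open Cfsg.Agent.Lib.Fischer.Basic Cfsg.Agent.Lib.Fischer.Local
open Cfsg.Agent.Lib.Compute.ToddCoxeterCore

/-! ### Counting bits -/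

/-- The table of the number of bits of the numbers below `256`. -/
def pcT : ℕ := nat_lit 0x8776766576656554766565546554544376656554655454436554544354434332766565546554544365545443544343326554544354434332544343324332322176656554655454436554544354434332655454435443433254434332433232216554544354434332544343324332322154434332433232214332322132212110

/-- The number of bits of a byte. -/
def pc8 (B : ℕ) : ℕ := Nat.land (Nat.shiftRight pcT (Nat.mul 4 B)) 15

theorem pc8_card : ∀ B, B < 256 → pc8 B = ((Finset.range 8).filter (fun i => B.testBit i = true)).card := by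
  decide +kernel

/-- The number of bits of a number below `2 ^ (8 * 2 ^ k)`. -/
noncomputable def pc : ℕ → ℕ → ℕ
  | 0, B => pc8 B
  | k + 1, B => Bool.rec (motive := fun _ => ℕ)
      (frc (Nat.mod B (Nat.pow 2 (Nat.mul 8 (Nat.pow 2 k)))) fun a => frc (Nat.div B (Nat.pow 2 (Nat.mul 8 (Nat.pow 2 k)))) fun b =>
        Nat.add (pc k a) (pc k b)) 0 (Nat.beq B 0)

theorem pc_card : ∀ (k B : ℕ), B < 2 ^ (8 * 2 ^ k) → pc k B = ((Finset.range (8 * 2 ^ k)).filter (fun i => B.testBit i = true)).card := by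
  intro k
  induction k with
  | zero =>
    intro B hB
    exact pc8_card B (by simpa using hB)
  | succ k ih =>
    intro B hB
    by_cases h0 : B = 0
    · subst h0
      have : pc (k + 1) 0 = 0 := rfl
      rw [this]
      simp
    · have h1 : Nat.beq B 0 = false := by
        cases k' : Nat.beq B 0 with
        | false => rfl
        | true => exact absurd (Nat.eq_of_beq_eq_true k') h0
      have h2 : pc (k + 1) B = pc k (B % 2 ^ (8 * 2 ^ k)) + pc k (B / 2 ^ (8 * 2 ^ k)) := by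
        show Bool.rec (motive := fun _ => ℕ) _ 0 (Nat.beq B 0) = _
        rw [h1]
        simp only [frc_eq]
        rfl
      have hM : 0 < 2 ^ (8 * 2 ^ k) := by positivity
      have e4 : 8 * 2 ^ (k + 1) = 8 * 2 ^ k + 8 * 2 ^ k := by rw [pow_succ]; ring
      have h3 : B / 2 ^ (8 * 2 ^ k) < 2 ^ (8 * 2 ^ k) := by
        rw [Nat.div_lt_iff_lt_mul hM, ← pow_add, ← e4]
        exact hB
      rw [h2, ih _ (Nat.mod_lt _ hM), ih _ h3, e4, Finset.card_filter, Finset.card_filter, Finset.card_filter,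
        Finset.sum_range_add]
      congr 1
      · apply Finset.sum_congr rfl
        intro i hi
        have hi' : i < 8 * 2 ^ k := Finset.mem_range.1 hi
        rw [Nat.testBit_mod_two_pow]
        simp [hi']
      · apply Finset.sum_congr rfl
        intro i hi
        rw [Nat.testBit_div_two_pow, Nat.add_comm]

/-- The labels given by a bitset. -/
noncomputable def lbS (B : ℕ) : Finset (Fin NN) := Finset.univ.filter (fun p => B.testBit p = true)

theorem card_lbS {B : ℕ} (h1 : B < 2 ^ (8 * 2 ^ 16)) (h2 : ∀ i, NN ≤ i → B.testBit i = false) : (lbS B).card = pc 16 B := by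
  rw [pc_card 16 B h1]
  apply Finset.card_bij (fun (p : Fin NN) _ => (p : ℕ))
  · intro p hp
    rw [lbS, Finset.mem_filter] at hp
    refine Finset.mem_filter.2 ⟨Finset.mem_range.2 (lt_of_lt_of_le p.2 (by norm_num [NN])), hp.2⟩
  · intro a _ b _ h
    exact Fin.ext h
  · intro b hb
    rw [Finset.mem_filter] at hb
    have hlt : b < NN := by
      by_contra hne
      rw [h2 b (by omega)] at hb
      cases hb.2
    exact ⟨⟨b, hlt⟩, by rw [lbS, Finset.mem_filter]; exact ⟨Finset.mem_univ _, hb.2⟩, rfl⟩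

/-! ### Stabilizers -/

/-- The stabilizer of a label. -/
noncomputable def stabS (p : Fin NN) : Subgroup G2 where
  carrier := {g | φ g p = p}
  mul_mem' := by
    intro a b ha hb
    show φ (a * b) p = p
    rw [map_mul, Equiv.Perm.mul_apply, show φ b p = p from hb, show φ a p = p from ha]
  one_mem' := by
    show φ 1 p = p
    rw [map_one]
    rfl
  inv_mem' := by
    intro a ha
    show φ a⁻¹ p = p
    rw [map_inv, Equiv.Perm.inv_eq_iff_eq]
    exact (show φ a p = p from ha).symm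

theorem mem_stabS {p : Fin NN} {g : G2} : g ∈ stabS p ↔ φ g p = p := Iff.rfl

theorem stab_lower (H : Subgroup G2) (p : Fin NN) (S : Finset (Fin NN)) (hS : ∀ s ∈ S, ∃ h ∈ H, φ h p = s) :
    S.card * Nat.card ↥(H ⊓ stabS p) ≤ Nat.card H := by
  choose! g hg1 hg2 using hS
  let f : ↥S × ↥(H ⊓ stabS p) → ↥H := fun a => ⟨g a.1 * a.2, H.mul_mem (hg1 _ a.1.2) a.2.2.1⟩
  have hf : Function.Injective f := by
    rintro ⟨s, u⟩ ⟨s', u'⟩ h
    have h1 : g s * (u : G2) = g s' * (u' : G2) := congrArg Subtype.val h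
    have h2 : φ (g s * (u : G2)) p = s := by
      rw [map_mul, Equiv.Perm.mul_apply, u.2.2, hg2 _ s.2]
    have h3 : φ (g s' * (u' : G2)) p = s' := by
      rw [map_mul, Equiv.Perm.mul_apply, u'.2.2, hg2 _ s'.2]
    rw [h1, h3] at h2
    have h4 : s = s' := Subtype.ext h2.symm
    subst h4
    have h5 := mul_left_cancel h1
    rw [Subtype.ext h5]
  have := Nat.card_le_card_of_injective f hf
  rw [Nat.card_prod, Nat.card_eq_fintype_card (α := ↥S), Fintype.card_coe] at this
  exact this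

open _root_.Classical in
theorem stab_upper (H : Subgroup G2) (p : Fin NN) (S : Finset (Fin NN)) (hS : ∀ h ∈ H, φ h p ∈ S) :
    Nat.card H ≤ S.card * Nat.card ↥(H ⊓ stabS p) := by
  let sec : Fin NN → G2 := fun s => if h : ∃ u ∈ H, φ u p = s then h.choose else 1
  have hsec : ∀ u ∈ H, sec (φ u p) ∈ H ∧ φ (sec (φ u p)) p = φ u p := by
    intro u hu
    have h : ∃ v ∈ H, φ v p = φ u p := ⟨u, hu, rfl⟩
    have e : sec (φ u p) = h.choose := dif_pos h
    rw [e]
    exact h.choose_spec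
  let f : ↥H → ↥S × ↥(H ⊓ stabS p) := fun u =>
    (⟨φ u p, hS u u.2⟩, ⟨(sec (φ u p))⁻¹ * u, H.mul_mem (H.inv_mem (hsec u u.2).1) u.2, by
      show φ ((sec (φ u p))⁻¹ * u) p = p
      rw [map_mul, Equiv.Perm.mul_apply, map_inv, Equiv.Perm.inv_eq_iff_eq]
      exact (hsec u u.2).2.symm⟩)
  have hf : Function.Injective f := by
    intro a b h
    simp only [f, Prod.mk.injEq, Subtype.mk.injEq] at h
    obtain ⟨h1, h2⟩ := h
    have h3 : (sec (φ a p))⁻¹ = (sec (φ b p))⁻¹ := congrArg (fun x => (sec x)⁻¹) h1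
    have h4 : (sec (φ b p))⁻¹ * (a : G2) = (sec (φ b p))⁻¹ * (b : G2) := (congrArg (fun x => x * (a : G2)) h3).symm.trans (Subtype.mk.inj h2)
    exact Subtype.ext (mul_left_cancel h4)
  have := Nat.card_le_card_of_injective f hf
  rw [Nat.card_prod, Nat.card_eq_fintype_card (α := ↥S), Fintype.card_coe] at this
  exact this

/-! ### The chain -/

/-- The bits of the labels fixed by some words, except some labels. -/
noncomputable def fixB (us : List (List ℕ)) (l : List ℕ) : ℕ :=
  us.foldr (fun u acc => Nat.land (Nat.xor (moved u) (fullS 306936)) acc) (Nat.land (fullS 306936) (Nat.xor (fullS 306936) (bitsOf l)))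

theorem testBit_fixB (us : List (List ℕ)) (l : List ℕ) (p : ℕ) :
    (fixB us l).testBit p = true ↔ (p < 306936 ∧ p ∉ l) ∧ ∀ u ∈ us, (moved u).testBit p = false ∧ p < 306936 := by
  have e1 : ∀ P Q, Nat.land P Q = P &&& Q := fun _ _ => rfl
  have e2 : ∀ P Q, Nat.xor P Q = P ^^^ Q := fun _ _ => rfl
  induction us with
  | nil =>
    have e : fixB [] l = Nat.land (fullS 306936) (Nat.xor (fullS 306936) (bitsOf l)) := rfl
    rw [e, e1, e2, Nat.testBit_and, Nat.testBit_xor, testBit_fullS]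
    have h := testBit_bitsOf l p
    by_cases hp : p ∈ l
    · rw [h.2 hp]
      simp [hp]
    · have : (bitsOf l).testBit p = false := by
        cases k : (bitsOf l).testBit p with
        | false => rfl
        | true => exact absurd (h.1 k) hp
      rw [this]
      simp [hp]
  | cons u us ih =>
    have e : fixB (u :: us) l = Nat.land (Nat.xor (moved u) (fullS 306936)) (fixB us l) := rfl
    rw [e, e1, e2, Nat.testBit_and, Bool.and_eq_true, Nat.testBit_xor, testBit_fullS]
    simp only [List.mem_cons, forall_eq_or_imp]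
    constructor
    · rintro ⟨h1, h2⟩
      obtain ⟨h3, h4⟩ := ih.1 h2
      refine ⟨h3, ?_, h4⟩
      have h5 : decide (p < 306936) = true := decide_eq_true h3.1
      rw [h5] at h1
      simp at h1
      exact ⟨h1, h3.1⟩
    · rintro ⟨h1, ⟨h2, h3⟩, h4⟩
      refine ⟨?_, ih.2 ⟨h1, h4⟩⟩
      rw [h2, decide_eq_true h3]
      rfl

theorem fixB_high {us : List (List ℕ)} {l : List ℕ} {i : ℕ} (hi : NN ≤ i) : (fixB us l).testBit i = false := by
  cases k : (fixB us l).testBit i with
  | false => rfl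
  | true =>
    have := ((testBit_fixB us l i).1 k).1.1
    have h2 : 306936 ≤ i := hi
    omega

theorem fixB_lt (us : List (List ℕ)) (l : List ℕ) : fixB us l < 2 ^ (8 * 2 ^ 16) := by
  have h : fixB us l < 2 ^ NN := Nat.lt_pow_two_of_testBit _ (fun j hj => fixB_high hj)
  exact lt_of_lt_of_le h (Nat.pow_le_pow_right (by norm_num) (by norm_num [NN]))

theorem card_fixB (us : List (List ℕ)) (l : List ℕ) : (lbS (fixB us l)).card = pc 16 (fixB us l) :=
  card_lbS (fixB_lt us l) (fun _ hi => fixB_high hi)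

theorem mem_lbS_fix {us : List (List ℕ)} {l : List ℕ} {s : Fin NN} (hs : s ∈ lbS (fixB us l)) :
    (s : ℕ) ∉ l ∧ ∀ u ∈ us, φ (Lw u) s = s := by
  rw [lbS, Finset.mem_filter] at hs
  have h := (testBit_fixB us l s).1 hs.2
  refine ⟨h.1.2, fun u hu => ?_⟩
  have h1 := (h.2 u hu).1
  have hp : (s : ℕ) < 306938 := lt_of_lt_of_le s.2 (by norm_num [NN])
  apply Fin.ext
  rw [φ_Lw]
  by_contra hne
  have := (testBit_moved u hp).2 hne
  rw [h1] at this
  cases this

theorem pc1 : pc 16 (fixB [[10]] [31671]) = 31671 := by decide +kernel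
theorem pc2 : pc 16 (fixB [[10], [0]] [31671, 11589]) = 3510 := by decide +kernel
theorem pc3 : pc 16 (fixB [[10], [0], [2]] [31671, 11589, 8003]) = 693 := by decide +kernel

/-- The chain of stabilizers. -/
noncomputable def A1 : Subgroup G2 := stabS (labF 0 0)
/-- The chain of stabilizers. -/
noncomputable def A2 : Subgroup G2 := A1 ⊓ stabS (labF 0 1)
/-- The chain of stabilizers. -/
noncomputable def A3 : Subgroup G2 := A2 ⊓ stabS (labF 0 2)
/-- The chain of stabilizers. -/
noncomputable def A4 : Subgroup G2 := A3 ⊓ stabS (labF 0 3)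

theorem conj_fix {g d : G2} {p : Fin NN} (hd : t p = d) (h : g * d * g⁻¹ = d) : g ∈ stabS p := by
  rw [mem_stabS]
  apply t_inj
  rw [← t_conj, hd, h]

theorem conj_img {g d : G2} {s p : Fin NN} (hd : t p = d) (h : g * t s * g⁻¹ = d) : φ g⁻¹ p = s := by
  have h1 : φ g s = p := by
    apply t_inj
    rw [← t_conj, h, hd]
  rw [← h1, map_inv, pinv]

theorem lab_ne {s : Fin NN} {i m : ℕ} (hi : i < 126) (hm : m < 4) (h : (s : ℕ) ≠ labN i m) : t (labF i m) ≠ t s := by
  intro k
  apply h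
  rw [← t_inj k, labF_val hi hm]

theorem orb1 (s : Fin NN) (hs : s ∈ lbS (fixB [[10]] [31671])) : ∃ h ∈ A1, φ h (labF 0 1) = s := by
  obtain ⟨e0, e1, e2, e3⟩ := t_lab0
  obtain ⟨h1, h2⟩ := mem_lbS_fix hs
  have c10 := h2 [10] (by simp)
  rw [Lw_single] at c10
  have c : Commute (t (labF 0 0)) (t s) := by rw [e0]; exact (comm_t_iff' _ _).2 c10
  have n0 : t (labF 0 0) ≠ t s := lab_ne (by norm_num) (by norm_num) (by
    rw [T0_val.1]; simpa using h1)
  obtain ⟨g, g0, g1⟩ := pair_nf2 (t_mem _) (t_mem s) c n0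
  rw [e0] at g0
  exact ⟨g⁻¹, (stabS _).inv_mem (conj_fix e0 g0), conj_img e1 g1⟩

theorem orb2 (s : Fin NN) (hs : s ∈ lbS (fixB [[10], [0]] [31671, 11589])) : ∃ h ∈ A2, φ h (labF 0 2) = s := by
  obtain ⟨e0, e1, e2, e3⟩ := t_lab0
  obtain ⟨h1, h2⟩ := mem_lbS_fix hs
  have c10 := h2 [10] (by simp)
  have c11 := h2 [0] (by simp)
  rw [Lw_single] at c10 c11
  have c : Commute (t (labF 0 0)) (t s) := by rw [e0]; exact (comm_t_iff' _ _).2 c10
  have c' : Commute (t (labF 0 1)) (t s) := by rw [e1]; exact (comm_t_iff' _ _).2 c11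
  have n0 : t (labF 0 0) ≠ t s := lab_ne (by norm_num) (by norm_num) (by
    rw [T0_val.1]; intro k; apply h1; simp [k])
  have n1 : t (labF 0 1) ≠ t s := lab_ne (by norm_num) (by norm_num) (by
    rw [T0_val.2.1]; intro k; apply h1; simp [k])
  have n01 : t (labF 0 0) ≠ t (labF 0 1) := labF_ne (by norm_num) (by norm_num) (by norm_num) (by norm_num)
  have c01 : Commute (t (labF 0 0)) (t (labF 0 1)) := by rw [e0, e1]; exact comm_letters.1
  obtain ⟨g, g0, g1, g2⟩ := triple_nf2 (t_mem _) (t_mem _) (t_mem s) c01 c c' n01 n0 n1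
  rw [e0] at g0
  rw [e1] at g1
  exact ⟨g⁻¹, ⟨(stabS _).inv_mem (conj_fix e0 g0), (stabS _).inv_mem (conj_fix e1 g1)⟩, conj_img e2 g2⟩

theorem orb3 (s : Fin NN) (hs : s ∈ lbS (fixB [[10], [0], [2]] [31671, 11589, 8003])) : ∃ h ∈ A3, φ h (labF 0 3) = s := by
  obtain ⟨e0, e1, e2, e3⟩ := t_lab0
  obtain ⟨h1, h2⟩ := mem_lbS_fix hs
  have c10 := h2 [10] (by simp)
  have c11 := h2 [0] (by simp)
  have c12 := h2 [2] (by simp)
  rw [Lw_single] at c10 c11 c12
  have c : Commute (t (labF 0 0)) (t s) := by rw [e0]; exact (comm_t_iff' _ _).2 c10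
  have c' : Commute (t (labF 0 1)) (t s) := by rw [e1]; exact (comm_t_iff' _ _).2 c11
  have c'' : Commute (t (labF 0 2)) (t s) := by rw [e2]; exact (comm_t_iff' _ _).2 c12
  have n0 : t (labF 0 0) ≠ t s := lab_ne (by norm_num) (by norm_num) (by
    rw [T0_val.1]; intro k; apply h1; simp [k])
  have n1 : t (labF 0 1) ≠ t s := lab_ne (by norm_num) (by norm_num) (by
    rw [T0_val.2.1]; intro k; apply h1; simp [k])
  have n2 : t (labF 0 2) ≠ t s := lab_ne (by norm_num) (by norm_num) (by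
    rw [T0_val.2.2.1]; intro k; apply h1; simp [k])
  have hn : ∀ {m m' : ℕ}, m < 4 → m' < 4 → m ≠ m' → t (labF 0 m) ≠ t (labF 0 m') := fun a b k => labF_ne (by norm_num) a b k
  have c01 : Commute (t (labF 0 0)) (t (labF 0 1)) := by rw [e0, e1]; exact comm_letters.1
  have c02 : Commute (t (labF 0 0)) (t (labF 0 2)) := by rw [e0, e2]; exact comm_letters.2.1
  have c12' : Commute (t (labF 0 1)) (t (labF 0 2)) := by rw [e1, e2]; exact comm_L0_L2
  obtain ⟨g, g0, g1, g2, g3⟩ := quad_nf2 (t_mem _) (t_mem _) (t_mem _) (t_mem s) c01 c02 c c12' c' c''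
    (hn (by norm_num) (by norm_num) (by norm_num)) (hn (by norm_num) (by norm_num) (by norm_num)) n0
    (hn (by norm_num) (by norm_num) (by norm_num)) n1 n2
  rw [e0] at g0
  rw [e1] at g1
  rw [e2] at g2
  exact ⟨g⁻¹, ⟨⟨(stabS _).inv_mem (conj_fix e0 g0), (stabS _).inv_mem (conj_fix e1 g1)⟩, (stabS _).inv_mem (conj_fix e2 g2)⟩, conj_img e3 g3⟩

theorem card_stab (p : Fin NN) : NN * Nat.card ↥(stabS p) ≤ Nat.card G2 := by
  have h0 := stab_lower ⊤ p Finset.univ (fun s _ => by
    obtain ⟨g, hg⟩ := exists_wt s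
    obtain ⟨g', hg'⟩ := exists_wt p
    refine ⟨g * g'⁻¹, trivial, ?_⟩
    rw [map_mul, Equiv.Perm.mul_apply, ← hg', map_inv, pinv, hg])
  rw [top_inf_eq, Subgroup.card_top, Finset.card_univ, Fintype.card_fin] at h0
  exact h0

theorem card_A4 : Nat.card A4 ≤ 2 ^ 18 * 3 ^ 4 * 5 := by
  have h0 : NN * Nat.card A1 ≤ Nat.card G2 := card_stab _
  have h1 := stab_lower A1 (labF 0 1) (lbS (fixB [[10]] [31671])) (fun s hs => orb1 s hs)
  have h2 := stab_lower A2 (labF 0 2) (lbS (fixB [[10], [0]] [31671, 11589])) (fun s hs => orb2 s hs)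
  have h3 := stab_lower A3 (labF 0 3) (lbS (fixB [[10], [0], [2]] [31671, 11589, 8003])) (fun s hs => orb3 s hs)
  rw [card_fixB, pc1] at h1
  rw [card_fixB, pc2] at h2
  rw [card_fixB, pc3] at h3
  rw [card2] at h0
  change 31671 * Nat.card A2 ≤ Nat.card A1 at h1
  change 3510 * Nat.card A3 ≤ Nat.card A2 at h2
  change 693 * Nat.card A4 ≤ Nat.card A3 at h3
  unfold NN at h0
  norm_num at h0 ⊢
  omega

/-! ### The upper bound -/

/-- Labels of blocks. -/
noncomputable def S0 : Finset (Fin NN) := (Finset.range 504).image (fun k => labF (k / 4) (k % 4))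

theorem card_S0 : S0.card ≤ 504 := by
  unfold S0
  exact Finset.card_image_le.trans (by simp)

theorem mem_S0 {i m : ℕ} (hi : i < 126) (hm : m < 4) : labF i m ∈ S0 := by
  refine Finset.mem_image.2 ⟨4 * i + m, Finset.mem_range.2 (by omega), ?_⟩
  have e1 : (4 * i + m) / 4 = i := by omega
  have e2 : (4 * i + m) % 4 = m := by omega
  simp only [e1, e2]

/-- The stabilizers in the centralizer. -/
noncomputable def Γ1 : Subgroup G2 := Γ ⊓ stabS (labF 0 0)
/-- The stabilizers in the centralizer. -/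
noncomputable def Γ2 : Subgroup G2 := Γ1 ⊓ stabS (labF 0 1)
/-- The stabilizers in the centralizer. -/
noncomputable def Γ3 : Subgroup G2 := Γ2 ⊓ stabS (labF 0 2)

theorem Γ1_mem {h : G2} (hh : h ∈ Γ1) {m : ℕ} (hm : m < 4) : ∃ m', m' < 4 ∧ φ h (labF 0 m) = labF 0 m' := by
  have h1 : rho0 h 0 = 0 := rho0_eq hh.1 (by norm_num) (by norm_num) (m := 0) (m' := 0) (by norm_num) (by norm_num) hh.2
  have := rho0_mem hh.1 (i := 0) (by norm_num) hm
  rwa [h1] at this

theorem lab_ne' {m m' : ℕ} (hm : m < 4) (hm' : m' < 4) (h : m ≠ m') : labF 0 m ≠ labF 0 m' :=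
  fun k => h (labF_inj (by norm_num) (by norm_num) hm hm' k).2

theorem card_Γ : Nat.card Γ ≤ 504 * 3 * 2 * (2 ^ 18 * 3 ^ 4 * 5) := by
  have h0 := stab_upper Γ (labF 0 0) S0 (fun h hh => by
    obtain ⟨j, hj, hk⟩ := blk_map hh (i := 0) (by norm_num)
    obtain ⟨m', hm', e⟩ := hk 0 (by norm_num)
    rw [e]
    exact mem_S0 hj hm')
  have h1 := stab_upper Γ1 (labF 0 1) {labF 0 1, labF 0 2, labF 0 3} (fun h hh => by
    obtain ⟨m', hm', e⟩ := Γ1_mem hh (m := 1) (by norm_num)
    rw [e]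
    have hne : m' ≠ 0 := by
      rintro rfl
      have h4 : φ h (labF 0 1) = φ h (labF 0 0) := by rw [e, show φ h (labF 0 0) = labF 0 0 from hh.2]
      exact lab_ne' (by norm_num) (by norm_num) (by norm_num) ((φ h).injective h4)
    simp only [Finset.mem_insert, Finset.mem_singleton]
    interval_cases m' <;> simp at hne ⊢)
  have h2 := stab_upper Γ2 (labF 0 2) {labF 0 2, labF 0 3} (fun h hh => by
    obtain ⟨m', hm', e⟩ := Γ1_mem hh.1 (m := 2) (by norm_num)
    rw [e]
    have hne0 : m' ≠ 0 := by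
      rintro rfl
      have h4 : φ h (labF 0 2) = φ h (labF 0 0) := by rw [e, show φ h (labF 0 0) = labF 0 0 from hh.1.2]
      exact lab_ne' (by norm_num) (by norm_num) (by norm_num) ((φ h).injective h4)
    have hne1 : m' ≠ 1 := by
      rintro rfl
      have h4 : φ h (labF 0 2) = φ h (labF 0 1) := by rw [e, show φ h (labF 0 1) = labF 0 1 from hh.2]
      exact lab_ne' (by norm_num) (by norm_num) (by norm_num) ((φ h).injective h4)
    simp only [Finset.mem_insert, Finset.mem_singleton]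
    interval_cases m' <;> simp at hne0 hne1 ⊢)
  have h3 : Γ3 ≤ A4 := by
    intro h hh
    refine ⟨⟨⟨hh.1.1.2, hh.1.2⟩, hh.2⟩, ?_⟩
    obtain ⟨m', hm', e⟩ := Γ1_mem hh.1.1 (m := 3) (by norm_num)
    show φ h (labF 0 3) = labF 0 3
    rw [e]
    have hne0 : m' ≠ 0 := by
      rintro rfl
      have h4 : φ h (labF 0 3) = φ h (labF 0 0) := by rw [e, show φ h (labF 0 0) = labF 0 0 from hh.1.1.2]
      exact lab_ne' (by norm_num) (by norm_num) (by norm_num) ((φ h).injective h4)
    have hne1 : m' ≠ 1 := by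
      rintro rfl
      have h4 : φ h (labF 0 3) = φ h (labF 0 1) := by rw [e, show φ h (labF 0 1) = labF 0 1 from hh.1.2]
      exact lab_ne' (by norm_num) (by norm_num) (by norm_num) ((φ h).injective h4)
    have hne2 : m' ≠ 2 := by
      rintro rfl
      have h4 : φ h (labF 0 3) = φ h (labF 0 2) := by rw [e, show φ h (labF 0 2) = labF 0 2 from hh.2]
      exact lab_ne' (by norm_num) (by norm_num) (by norm_num) ((φ h).injective h4)
    have : m' = 3 := by omega
    rw [this]
  have h4 := Subgroup.card_le_of_le h3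
  have h5 := card_A4
  have c0 : Nat.card Γ ≤ 504 * Nat.card Γ1 := h0.trans (Nat.mul_le_mul_right _ card_S0)
  have c1 : Nat.card Γ1 ≤ 3 * Nat.card Γ2 := h1.trans (Nat.mul_le_mul_right _ (Finset.card_le_three))
  have c2 : Nat.card Γ2 ≤ 2 * Nat.card Γ3 := h2.trans (Nat.mul_le_mul_right _ (Finset.card_le_two))
  omega

theorem z2_Γ : z2 ∈ Γ := by
  rw [mem_Γ, z0_eq]
  obtain ⟨c0, c2, c4⟩ := comm_letters
  have c1 : Commute z2 z2 := Commute.refl _
  have := ((c1.mul_right c0).mul_right c2).mul_right c4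
  exact this.eq

theorem card_X_le : Nat.card ↥(F2 ⊓ Γ) ≤ 2 ^ 21 * 3 ^ 7 * 5 * 7 := by
  have h1 : F2 ⊓ Γ ≤ Γ := inf_le_right
  have h2 : Nat.card ↥(F2 ⊓ Γ) ∣ Nat.card Γ := Subgroup.card_dvd_of_le h1
  have h3 : F2 ⊓ Γ ≠ Γ := by
    intro k
    have : z2 ∈ F2 ⊓ Γ := by
      rw [k]
      exact z2_Γ
    exact z2_not_F2 this.1
  have h4 : Nat.card ↥(F2 ⊓ Γ) ≠ Nat.card Γ := by
    intro k
    exact h3 (Subgroup.eq_of_le_of_card_ge h1 k.ge)
  have h5 := card_Γ
  obtain ⟨d, hd⟩ := h2
  have h6 : 0 < Nat.card Γ := Nat.card_pos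
  have h7 : d ≠ 0 := by
    rintro rfl
    omega
  have h8 : d ≠ 1 := by
    rintro rfl
    omega
  have h9 : 2 ≤ d := by omega
  have h10 : Nat.card ↥(F2 ⊓ Γ) * 2 ≤ Nat.card ↥(F2 ⊓ Γ) * d := Nat.mul_le_mul_left _ h9
  rw [← hd] at h10
  have g1 : (504 * 3 * 2 * (2 ^ 18 * 3 ^ 4 * 5) : ℕ) = 321052999680 := by norm_num
  have g2 : (2 ^ 21 * 3 ^ 7 * 5 * 7 : ℕ) = 160526499840 := by norm_num
  rw [g1] at h5
  rw [g2]
  omega

end Cfsg.Agent.Lib.Fischer.M24.C4
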