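/-
An extraspecial `2`-group from a hyperbolic family of involutions.
-/
import Mathlib
import Cfsg.Prelude.Def_Transfer
import Cfsg.Agent.Lib.Fischer.M22.R3.Step
import Cfsg.Agent.Lib.PGroup.Basic

set_option autoImplicit false

namespace Cfsg.Agent.Lib.Fischer.M24.C4

open Cfsg Subgroup
open scoped commutatorElement
open Cfsg.Agent.Lib.Fischer.M22.R3 (card_sup_zpowers mem_normalizer_of_map_le comm_mem_closure exists_mul_pow_lt)

/-- Sufficient conditions for extraspecial. -/
theorem isExtraspecial_of' {P : Type*} [Group P] [Finite P] {p : ℕ} [hp : Fact p.Prime]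
    (hP : IsPGroup p P) (W : Subgroup P) (hW : Nat.card W = p) (hcen : center P ≤ W)
    (hWc : W ≤ center P) (hpow : ∀ x : P, x ^ p ∈ W) (hcomm : ∀ x y : P, ⁅x, y⁆ ∈ W)
    (hna : ∃ x y : P, ⁅x, y⁆ ≠ 1) : Cfsg.IsExtraspecial p P := by
  have h1 : center P = W := le_antisymm hcen hWc
  have h2 : frattini P ≤ W :=
    (Cfsg.Agent.Lib.PGroup.Basic.frattini_le_iff hP).mpr ⟨hpow, hcomm⟩
  have h3 : commutator P ≤ W := by
    rw [_root_.commutator_def, Subgroup.commutator_le]
    intro x _ y _
    exact hcomm x y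
  have h4 : commutator P ≠ ⊥ := by
    obtain ⟨x, y, hxy⟩ := hna
    intro h
    apply hxy
    have : ⁅x, y⁆ ∈ commutator P := by
      rw [_root_.commutator_def]
      exact commutator_mem_commutator (mem_top x) (mem_top y)
    rw [h] at this
    simpa using this
  have h5 : commutator P = W := by
    have hdvd := Subgroup.card_dvd_of_le h3
    rw [hW] at hdvd
    rcases (Nat.dvd_prime hp.out).mp hdvd with h6 | h6
    · exact absurd (Subgroup.eq_bot_of_card_eq _ h6) h4
    · exact Subgroup.eq_of_le_of_card_ge h3 (by rw [hW, h6])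
  have h6 : frattini P = W := by
    refine le_antisymm h2 ?_
    rw [← h5]
    exact Cfsg.Agent.Lib.PGroup.Basic.commutator_le_frattini hP
  refine ⟨⟨hP, ?_, ?_⟩, ?_⟩
  · rw [h6, h1]
  · rw [h5, h1]
  · rw [h1, hW]

section extra

variable {G : Type*} [Group G] [Finite G]

/-- A hyperbolic family of involutions with commutators in `⟨z⟩`. -/
structure Hyp (z : G) (x : ℕ → G) (n : ℕ) (pr : ℕ → ℕ) : Prop where
  z2 : z * z = 1
  z1 : z ≠ 1
  xz : ∀ k < n, x k * z = z * x k
  xx : ∀ k < n, x k * x k = 1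
  cc : ∀ j < n, ∀ k < n, x j * x k = x k * x j ∨ x j * x k = z * (x k * x j)
  prlt : ∀ k < n, pr k < n
  pc : ∀ k < n, ∀ j < k, x j * x (pr k) = x (pr k) * x j
  pn : ∀ k < n, x k * x (pr k) ≠ x (pr k) * x k

/-- The chain of subgroups. -/
noncomputable def HH (z : G) (x : ℕ → G) : ℕ → Subgroup G
  | 0 => zpowers z
  | k + 1 => HH z x k ⊔ zpowers (x k)

variable {z : G} {x : ℕ → G} {n : ℕ} {pr : ℕ → ℕ}

theorem HH_mono {j k : ℕ} (h : j ≤ k) : HH z x j ≤ HH z x k := by
  induction h with
  | refl => exact le_rfl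
  | step _ ih => exact ih.trans le_sup_left

theorem z_mem_HH (k : ℕ) : z ∈ HH z x k := HH_mono (Nat.zero_le k) (mem_zpowers z)

theorem x_mem_HH {j k : ℕ} (h : j < k) : x j ∈ HH z x k :=
  HH_mono h (mem_sup_right (mem_zpowers (x j)))

namespace Hyp

variable (h : Hyp z x n pr)
include h

theorem map_HH_le {k : ℕ} (hk : k < n) {j : ℕ} (hj : j ≤ k) :
    (HH z x j).map (MulAut.conj (x k)).toMonoidHom ≤ HH z x k := by
  induction j with
  | zero =>
    show (zpowers z).map (MulAut.conj (x k)).toMonoidHom ≤ HH z x k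
    rw [MonoidHom.map_zpowers, zpowers_le]
    have : (MulAut.conj (x k)).toMonoidHom z = z := by
      show x k * z * (x k)⁻¹ = z
      rw [h.xz k hk]
      group
    rw [this]
    exact z_mem_HH k
  | succ j ih =>
    show (HH z x j ⊔ zpowers (x j)).map (MulAut.conj (x k)).toMonoidHom ≤ HH z x k
    rw [Subgroup.map_sup, sup_le_iff]
    refine ⟨ih (by omega), ?_⟩
    rw [MonoidHom.map_zpowers, zpowers_le]
    show x k * x j * (x k)⁻¹ ∈ HH z x k
    have hjk : j < k := by omega
    rcases h.cc k hk j (by omega) with e | e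
    · rw [e]
      have : x j * x k * (x k)⁻¹ = x j := by group
      rw [this]
      exact x_mem_HH hjk
    · rw [e]
      have : z * (x j * x k) * (x k)⁻¹ = z * x j := by group
      rw [this]
      exact mul_mem (z_mem_HH k) (x_mem_HH hjk)

theorem x_normalizes {k : ℕ} (hk : k < n) : x k ∈ normalizer ((HH z x k : Subgroup G) : Set G) :=
  mem_normalizer_of_map_le (h.map_HH_le hk le_rfl)

theorem HH_le_centralizer {k : ℕ} (hk : k < n) {j : ℕ} (hj : j ≤ k) :
    HH z x j ≤ centralizer ({x (pr k)} : Set G) := by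
  induction j with
  | zero =>
    show zpowers z ≤ _
    rw [zpowers_le, mem_centralizer_singleton_iff]
    exact (h.xz (pr k) (h.prlt k hk)).symm
  | succ j ih =>
    show HH z x j ⊔ zpowers (x j) ≤ _
    refine sup_le (ih (by omega)) ?_
    rw [zpowers_le, mem_centralizer_singleton_iff]
    exact h.pc k hk j (by omega)

theorem x_not_mem {k : ℕ} (hk : k < n) : x k ∉ HH z x k := by
  intro h1
  have h2 := h.HH_le_centralizer hk le_rfl h1
  rw [mem_centralizer_singleton_iff] at h2
  exact h.pn k hk h2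

theorem z_order : orderOf z = 2 := orderOf_eq_prime (by rw [pow_two, h.z2]) h.z1

theorem card_HH {k : ℕ} (hk : k ≤ n) : Nat.card (HH z x k) = 2 ^ (k + 1) := by
  induction k with
  | zero =>
    show Nat.card (zpowers z) = 2 ^ 1
    rw [Nat.card_zpowers, h.z_order]
    norm_num
  | succ k ih =>
    show Nat.card ↥(HH z x k ⊔ zpowers (x k)) = _
    rw [card_sup_zpowers Nat.prime_two (h.x_normalizes (by omega))
      (by rw [pow_two, h.xx k (by omega)]; exact one_mem _) (h.x_not_mem (by omega)), ih (by omega)]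
    ring

omit h in
/-- The generating set. -/
theorem HH_eq_closure (k : ℕ) : HH z x k = closure (insert z (x '' {i | i < k})) := by
  apply le_antisymm
  · induction k with
    | zero =>
      show zpowers z ≤ _
      rw [zpowers_le]
      exact subset_closure (Set.mem_insert _ _)
    | succ k ih =>
      refine sup_le (ih.trans (closure_mono (Set.insert_subset_insert (Set.image_mono (fun i hi => Nat.lt_succ_of_lt hi))))) ?_
      rw [zpowers_le]
      exact subset_closure (Set.mem_insert_of_mem _ ⟨k, Nat.lt_succ_self k, rfl⟩)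
  · rw [closure_le]
    rintro _ (rfl | ⟨i, hi, rfl⟩)
    · exact z_mem_HH k
    · exact x_mem_HH hi

theorem gens_comm_z {c : G} (hc : c ∈ zpowers z) {s : G} (hs : s ∈ insert z (x '' {i | i < n})) : c * s = s * c := by
  have h1 : zpowers z ≤ centralizer ({s} : Set G) := by
    rw [zpowers_le, mem_centralizer_singleton_iff]
    rcases hs with rfl | ⟨k, hk, rfl⟩
    · rfl
    · exact (h.xz k hk).symm
  have := h1 hc
  rwa [mem_centralizer_singleton_iff] at this

theorem gens_comm {s : G} (hs : s ∈ insert z (x '' {i | i < n})) {s' : G} (hs' : s' ∈ insert z (x '' {i | i < n})) :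
    s * s' * s⁻¹ * s'⁻¹ ∈ zpowers z := by
  have hzz : ∀ {s : G}, s ∈ insert z (x '' {i | i < n}) → z * s = s * z := fun hs => h.gens_comm_z (mem_zpowers z) hs
  rcases hs with rfl | ⟨k, hk, rfl⟩
  · rw [hzz hs']
    have : s' * s * s⁻¹ * s'⁻¹ = 1 := by group
    rw [this]
    exact one_mem _
  · rcases hs' with rfl | ⟨j, hj, rfl⟩
    · rw [h.xz k hk]
      have : s' * x k * (x k)⁻¹ * s'⁻¹ = 1 := by group
      rw [this]
      exact one_mem _
    · rcases h.cc k hk j hj with e | e
      · rw [e]
        have : x j * x k * (x k)⁻¹ * (x j)⁻¹ = 1 := by group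
        rw [this]
        exact one_mem _
      · rw [e]
        have : z * (x j * x k) * (x k)⁻¹ * (x j)⁻¹ = z := by group
        rw [this]
        exact mem_zpowers z

theorem comm_HH {a b : G} (ha : a ∈ HH z x n) (hb : b ∈ HH z x n) : a * b * a⁻¹ * b⁻¹ ∈ zpowers z := by
  rw [HH_eq_closure] at ha hb
  exact comm_mem_closure (fun c hc s hs => h.gens_comm_z hc hs) (fun s hs s' hs' => h.gens_comm hs hs') a ha b hb

/-- `z` is central in the group. -/
theorem z_comm_HH {a : G} (ha : a ∈ HH z x n) : a * z = z * a := by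
  rw [HH_eq_closure] at ha
  induction ha using Subgroup.closure_induction with
  | mem s hs => exact (h.gens_comm_z (mem_zpowers z) hs).symm
  | one => simp
  | mul a b _ _ ha hb => rw [mul_assoc, hb, ← mul_assoc, ha, mul_assoc]
  | inv a _ ha => exact (Commute.inv_left (a := a) (b := z) ha).eq

theorem zp_comm_HH {c a : G} (hc : c ∈ zpowers z) (ha : a ∈ HH z x n) : c * a = a * c := by
  have h1 : zpowers z ≤ centralizer ({a} : Set G) := by
    rw [zpowers_le, mem_centralizer_singleton_iff]
    exact (h.z_comm_HH ha).symm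
  have := h1 hc
  rwa [mem_centralizer_singleton_iff] at this

/-- Squares lie in `⟨z⟩`. -/
theorem sq_HH {a : G} (ha : a ∈ HH z x n) : a * a ∈ zpowers z := by
  have key : ∀ a ∈ closure (insert z (x '' {i | i < n})), a * a ∈ zpowers z := by
    intro a ha
    induction ha using Subgroup.closure_induction with
    | mem s hs =>
      rcases hs with rfl | ⟨k, hk, rfl⟩
      · rw [h.z2]
        exact one_mem _
      · rw [h.xx k hk]
        exact one_mem _
    | one => simp
    | mul a b ha' hb' ha hb =>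
      rw [← HH_eq_closure] at ha' hb'
      have h1 := h.comm_HH hb' ha'
      have e : a * b * (a * b) = (b * a * b⁻¹ * a⁻¹) * (a * a) * (b * b) := by
        calc a * b * (a * b) = a * (b * a * b⁻¹ * a⁻¹) * (a * b * b) := by group
          _ = (b * a * b⁻¹ * a⁻¹) * a * (a * b * b) := by rw [h.zp_comm_HH h1 ha']
          _ = (b * a * b⁻¹ * a⁻¹) * (a * a) * (b * b) := by group
      rw [e]
      exact mul_mem (mul_mem h1 ha) hb
    | inv a ha' ha =>
      have e : a⁻¹ * a⁻¹ = (a * a)⁻¹ := by group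
      rw [e]
      exact inv_mem ha
  rw [HH_eq_closure] at ha
  exact key a ha

/-- An element of `Q` commuting with all of `Q` lies in `⟨z⟩`. -/
theorem center_HH {k : ℕ} (hk : k ≤ n) {a : G} (ha : a ∈ HH z x k) (hc : ∀ b ∈ HH z x n, a * b = b * a) : a ∈ zpowers z := by
  induction k with
  | zero => exact ha
  | succ k ih =>
    apply ih (by omega)
    have hk' : k < n := by omega
    have ha' : a ∈ HH z x k ⊔ zpowers (x k) := ha
    obtain ⟨u, hu, i, hi, rfl⟩ := exists_mul_pow_lt (p := 2) (by norm_num) (h.x_normalizes hk')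
      (by rw [pow_two, h.xx k hk']; exact one_mem _) ha'
    interval_cases i
    · simpa using hu
    · exfalso
      rw [pow_one] at hc
      have hpr : x (pr k) ∈ HH z x n := x_mem_HH (h.prlt k hk')
      have h1 := hc _ hpr
      have h2 := h.HH_le_centralizer hk' le_rfl hu
      rw [mem_centralizer_singleton_iff] at h2
      apply h.pn k hk'
      have h3 : u * (x k * x (pr k)) = u * (x (pr k) * x k) := by
        rw [← mul_assoc, h1, ← mul_assoc, ← h2, mul_assoc]
      exact mul_left_cancel h3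

/-- The group is extraspecial, when `n > 0`. -/
theorem extra (hn : 0 < n) : IsExtraspecial 2 ↥(HH z x n) := by
  haveI : Fact (Nat.Prime 2) := ⟨Nat.prime_two⟩
  have hmem : z ∈ HH z x n := z_mem_HH n
  have hP : IsPGroup 2 ↥(HH z x n) := IsPGroup.of_card (n := n + 1) (h.card_HH le_rfl)
  let W : Subgroup ↥(HH z x n) := (zpowers z).subgroupOf (HH z x n)
  have hle : zpowers z ≤ HH z x n := by rw [zpowers_le]; exact hmem
  have hW : Nat.card W = 2 := by
    have : Nat.card W = Nat.card (zpowers z) := Nat.card_congr (subgroupOfEquivOfLe hle).toEquiv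
    rw [this, Nat.card_zpowers, h.z_order]
  refine isExtraspecial_of' hP W hW ?_ ?_ ?_ ?_ ?_
  · rintro ⟨g, hg⟩ hc
    rw [mem_subgroupOf]
    show g ∈ zpowers z
    apply h.center_HH le_rfl hg
    intro b hb
    have := mem_center_iff.1 hc ⟨b, hb⟩
    exact (congrArg Subtype.val this).symm
  · rintro ⟨g, hg⟩ hg'
    rw [mem_subgroupOf] at hg'
    refine mem_center_iff.2 ?_
    rintro ⟨b, hb⟩
    apply Subtype.ext
    exact (h.zp_comm_HH hg' hb).symm
  · rintro ⟨g, hg⟩
    rw [mem_subgroupOf]
    show g ^ 2 ∈ zpowers z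
    rw [pow_two]
    exact h.sq_HH hg
  · rintro ⟨g, hg⟩ ⟨b, hb⟩
    rw [mem_subgroupOf]
    exact h.comm_HH hg hb
  · refine ⟨⟨x 0, x_mem_HH hn⟩, ⟨x (pr 0), x_mem_HH (h.prlt 0 hn)⟩, ?_⟩
    intro h1
    have h2 := commutatorElement_eq_one_iff_mul_comm.1 h1
    exact h.pn 0 hn (congrArg Subtype.val h2)

theorem conj_q {q q1 : G} (hq : q ∈ HH z x n) (hq1 : q1 ∈ HH z x n) : q * q1 * q⁻¹ = q1 ∨ q * q1 * q⁻¹ = z * q1 := by
  have h1 := h.comm_HH hq hq1
  obtain ⟨i, hi⟩ := mem_zpowers_iff.1 h1
  have h2 : z ^ i = 1 ∨ z ^ i = z := by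
    have hz : orderOf z = 2 := h.z_order
    rcases Int.emod_two_eq_zero_or_one i with h3 | h3
    · left
      rw [← zpow_mod_orderOf, hz]
      norm_num [h3]
    · right
      rw [← zpow_mod_orderOf, hz]
      norm_num [h3]
  rcases h2 with h2 | h2
  · left
    rw [h2] at hi
    exact mul_inv_eq_one.1 hi.symm
  · right
    rw [h2] at hi
    rw [hi]
    group

end Hyp

end extra

end Cfsg.Agent.Lib.Fischer.M24.C4
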