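/-
Two groups of permutations, one permuting a family of subsets of the points of the other.
-/
import Mathlib

set_option autoImplicit false

namespace Cfsg.Agent.Lib.Fischer.M24.C4

open Subgroup

section sub

variable {α β : Type*}

/-- The pairs of permutations compatible with a family of subsets. -/
def compat (s : β → Set α) : Subgroup (Equiv.Perm α × Equiv.Perm β) where
  carrier := {x | ∀ i p, p ∈ s i ↔ x.1 p ∈ s (x.2 i)}
  mul_mem' := by
    intro a b ha hb i p
    rw [hb i p, ha (b.2 i) (b.1 p)]
    rfl
  one_mem' := fun i p => Iff.rfl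
  inv_mem' := by
    intro a ha i p
    have h := ha (a.2⁻¹ i) (a.1⁻¹ p)
    have e1 : a.1 (a.1⁻¹ p) = p := by rw [← Equiv.Perm.mul_apply, mul_inv_cancel]; rfl
    have e2 : a.2 (a.2⁻¹ i) = i := by rw [← Equiv.Perm.mul_apply, mul_inv_cancel]; rfl
    rw [e1, e2] at h
    exact h.symm

/-- An isomorphism of the groups generated. -/
theorem exists_iso_of_compat {s : β → Set α} (hs : Function.Injective s) {T : Set (Equiv.Perm α × Equiv.Perm β)}
    (hT : T ⊆ compat s) (hsimp : IsSimpleGroup (closure (Prod.fst '' T))) (hne : closure (Prod.snd '' T) ≠ ⊥) :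
    Nonempty (closure (Prod.snd '' T) ≃* closure (Prod.fst '' T)) := by
  let A : Subgroup (Equiv.Perm α × Equiv.Perm β) := closure T
  have hA : A ≤ compat s := (closure_le _).2 hT
  let p1 : ↥A →* Equiv.Perm α := (MonoidHom.fst _ _).comp A.subtype
  let p2 : ↥A →* Equiv.Perm β := (MonoidHom.snd _ _).comp A.subtype
  have r1 : p1.range = closure (Prod.fst '' T) := by
    rw [MonoidHom.range_comp, range_subtype, MonoidHom.map_closure]
    rfl
  have r2 : p2.range = closure (Prod.snd '' T) := by
    rw [MonoidHom.range_comp, range_subtype, MonoidHom.map_closure]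
    rfl
  have i1 : Function.Injective p1 := by
    rw [injective_iff_map_eq_one]
    rintro ⟨⟨g, π⟩, hx⟩ h1
    have h2 : g = 1 := h1
    subst h2
    have h3 : π = 1 := by
      ext i
      have h4 : s i = s (π i) := by
        ext p
        exact hA hx i p
      have := hs h4
      rw [← this]
      rfl
    subst h3
    rfl
  let e1 : ↥A ≃* ↥(closure (Prod.fst '' T)) :=
    (MonoidHom.ofInjective i1).trans (MulEquiv.subgroupCongr r1)
  haveI := hsimp
  haveI hsA : IsSimpleGroup ↥A := e1.isSimpleGroup
  have i2 : Function.Injective p2 := by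
    rcases (MonoidHom.normal_ker p2).eq_bot_or_eq_top with h | h
    · exact (MonoidHom.ker_eq_bot_iff p2).mp h
    · exfalso
      apply hne
      rw [← r2, eq_bot_iff]
      rintro _ ⟨y, rfl⟩
      have : y ∈ p2.ker := by
        rw [h]
        trivial
      exact (MonoidHom.mem_ker).mp this
  let e2 : ↥A ≃* ↥(closure (Prod.snd '' T)) :=
    (MonoidHom.ofInjective i2).trans (MulEquiv.subgroupCongr r2)
  exact ⟨e2.symm.trans e1⟩

end sub

end Cfsg.Agent.Lib.Fischer.M24.C4
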