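/-
The group generated by three permutations of the `126` blocks is `PSU₄(3)`.
-/
import Mathlib
import Cfsg.Agent.Lib.Compute.Schur2.SU43Data
import Cfsg.Agent.Lib.Compute.Schur2.SU43
import Cfsg.Agent.Lib.Fischer.M24.C4.Data
import Cfsg.Agent.Lib.Fischer.M24.C4.Sub

set_option autoImplicit false
set_option maxRecDepth 1000000

namespace Cfsg.Agent.Lib.Fischer.M24.C4

open Cfsg Cfsg.Agent.Lib.Compute.PermCert Cfsg.Agent.Lib.Compute.Schur2

/-- The generators on `280` points. -/
def gs : List Elt := nextGens SU43D.ls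

theorem chainOk : chainCheck 9 511 280 SU43D.ls = true := by decide +kernel

theorem chainOrd : chainOrder SU43D.ls = 3265920 := by decide +kernel

theorem eltChk : (gs.zip SU43Tab.mcL).all (fun p => SU43.eltOK p.1 p.2) = true := by decide +kernel

theorem mcs_len : gs.length = SU43Tab.mcL.length := by decide +kernel

theorem hcardG : Nat.card (genGroup 9 511 280 gs) = 3265920 := by
  have := chain_card chainOk
  rw [chainOrd] at this
  exact this

theorem hall : ∀ e ∈ gs, permOf 9 511 280 e ∈ SU43.φ.range := by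
  intro e he
  obtain ⟨i, hi, rfl⟩ := List.getElem_of_mem he
  have h1 := List.all_eq_true.mp eltChk (gs[i], SU43Tab.mcL[i]'(by rw [← mcs_len]; exact hi))
    (by
      rw [List.mem_iff_getElem]
      refine ⟨i, by rw [List.length_zip, ← mcs_len]; omega, ?_⟩
      simp)
  exact SU43.permOf_mem_range h1

/-- The group on `280` points. -/
theorem iso280 : Nonempty (genGroup 9 511 280 gs ≃* PSU 4 SU43.K9 3) :=
  SU43.nonempty_iso hall hcardG

/-- The group on the blocks. -/
def Fg : Subgroup (Equiv.Perm (Fin 126)) := genGroup 9 511 126 PE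

/-- Bits. -/
def tb (B p : ℕ) : ℕ := Nat.land (Nat.shiftRight B p) 1

/-- The subsets. -/
def ss (i : Fin 126) : Set (Fin 280) := {p | tb (sB i) p = 1}

/-- A generator. -/
def gj (j : ℕ) : Elt := gs.getD j ⟨0, 0⟩

/-- A generator. -/
def pj (j : ℕ) : Elt := PE.getD j ⟨0, 0⟩

theorem gs_len : gs.length = 3 := by decide +kernel

theorem PE_len : PE.length = 3 := by decide +kernel

theorem val_gj : ∀ j < 3, validB 9 511 280 (gj j) = true := by decide +kernel

theorem val_pj : ∀ j < 3, validB 9 511 126 (pj j) = true := by decide +kernel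

theorem mem_gs {e : Elt} : e ∈ gs ↔ ∃ j, j < 3 ∧ e = gj j := by
  constructor
  · intro he
    obtain ⟨i, hi, rfl⟩ := List.getElem_of_mem he
    refine ⟨i, by rwa [gs_len] at hi, ?_⟩
    rw [gj, List.getD_eq_getElem _ _ hi]
  · rintro ⟨j, hj, rfl⟩
    have hj' : j < gs.length := by rwa [gs_len]
    rw [gj, List.getD_eq_getElem _ _ hj']
    exact List.getElem_mem hj'

theorem mem_PE {e : Elt} : e ∈ PE ↔ ∃ j, j < 3 ∧ e = pj j := by
  constructor
  · intro he
    obtain ⟨i, hi, rfl⟩ := List.getElem_of_mem he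
    refine ⟨i, by rwa [PE_len] at hi, ?_⟩
    rw [pj, List.getD_eq_getElem _ _ hi]
  · rintro ⟨j, hj, rfl⟩
    have hj' : j < PE.length := by rwa [PE_len]
    rw [pj, List.getD_eq_getElem _ _ hj']
    exact List.getElem_mem hj'

/-- The subsets are permuted compatibly. -/
theorem compat_chk : (List.range 3).all (fun j => allB (fun i => allB (fun p =>
    Nat.beq (tb (sB i) p) (tb (sB (get 9 511 (pj j).f i)) (get 9 511 (gj j).f p))) 280) 126) = true := by
  decide +kernel

theorem inj_chk : allB (fun i => allB (fun j => Nat.beq i j || (List.range 280).any fun p => !(Nat.beq (tb (sB i) p) (tb (sB j) p))) 126) 126 = true := by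
  decide +kernel

theorem ss_inj : Function.Injective ss := by
  intro i j hij
  apply Fin.ext
  have h1 := (allB_iff _ _).1 ((allB_iff _ _).1 inj_chk i i.2) j j.2
  rcases (Bool.or_eq_true _ _).mp h1 with h2 | h2
  · exact Nat.eq_of_beq_eq_true h2
  · exfalso
    obtain ⟨p, hp, hp2⟩ := List.any_eq_true.1 h2
    have hp' : p < 280 := List.mem_range.1 hp
    have hb : ∀ k, tb (sB k) p = 0 ∨ tb (sB k) p = 1 := by
      intro k
      have : tb (sB k) p = (sB k >>> p) &&& 1 := rfl
      rw [this, Nat.and_one_is_mod]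
      omega
    have h3 : (⟨p, hp'⟩ : Fin 280) ∈ ss i ↔ (⟨p, hp'⟩ : Fin 280) ∈ ss j := by rw [hij]
    have h4 : tb (sB i) p = 1 ↔ tb (sB j) p = 1 := h3
    have h5 : Nat.beq (tb (sB i) p) (tb (sB j) p) = true := by
      rcases hb i with a | a <;> rcases hb j with b | b <;> rw [a, b] at h4 ⊢ <;> simp at h4 ⊢
    rw [h5] at hp2
    cases hp2

/-- The pairs of generators. -/
noncomputable def TT : Set (Equiv.Perm (Fin 280) × Equiv.Perm (Fin 126)) :=
  {x | ∃ j, j < 3 ∧ x = (permOf 9 511 280 (gj j), permOf 9 511 126 (pj j))}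

theorem TT_compat : TT ⊆ compat ss := by
  rintro _ ⟨j, hj, rfl⟩ i p
  have h := Nat.eq_of_beq_eq_true ((allB_iff _ _).1 ((allB_iff _ _).1 (List.all_eq_true.1 compat_chk j (List.mem_range.2 hj)) i i.2) p p.2)
  show tb (sB i) p = 1 ↔ tb (sB (permOf 9 511 126 (pj j) i : Fin 126)) (permOf 9 511 280 (gj j) p : Fin 280) = 1
  rw [permOf_apply (val_pj j hj), permOf_apply (val_gj j hj), h]

theorem TT_fst : Subgroup.closure (Prod.fst '' TT) = genGroup 9 511 280 gs := by
  unfold genGroup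
  congr 1
  ext x
  constructor
  · rintro ⟨_, ⟨j, hj, rfl⟩, rfl⟩
    exact ⟨gj j, mem_gs.2 ⟨j, hj, rfl⟩, rfl⟩
  · rintro ⟨e, he, rfl⟩
    obtain ⟨j, hj, rfl⟩ := mem_gs.1 he
    exact ⟨_, ⟨j, hj, rfl⟩, rfl⟩

theorem TT_snd : Subgroup.closure (Prod.snd '' TT) = Fg := by
  unfold Fg genGroup
  congr 1
  ext x
  constructor
  · rintro ⟨_, ⟨j, hj, rfl⟩, rfl⟩
    exact ⟨pj j, mem_PE.2 ⟨j, hj, rfl⟩, rfl⟩
  · rintro ⟨e, he, rfl⟩
    obtain ⟨j, hj, rfl⟩ := mem_PE.1 he
    exact ⟨_, ⟨j, hj, rfl⟩, rfl⟩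

/-! ### Transitivity -/

/-- Words in the letters. -/
def cod (u : List ℕ) : List ℕ := u.map (Nat.mul 2)

theorem valPE : PE.all (validB 9 511 126) = true := by decide +kernel

theorem tr_chk : allB (fun i => Nat.beq (wordFn 9 511 PE (cod (trW.getD i [])) 0) i) 126 = true := by decide +kernel

theorem a_chk : allB (fun i => Nat.beq i 0 || !(Nat.beq (wordFn 9 511 PE (cod aW) i) i)) 126 = true := by decide +kernel

theorem a0_chk : wordFn 9 511 PE (cod aW) 0 = 0 := by decide +kernel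

theorem Fg_trans (i : Fin 126) : ∃ f ∈ Fg, f 0 = i := by
  refine ⟨wordPerm 9 511 126 PE (cod (trW.getD i [])), wordPerm_mem _ _, ?_⟩
  apply Fin.ext
  rw [← wordFn_eq valPE]
  exact Nat.eq_of_beq_eq_true ((allB_iff _ _).1 tr_chk i i.2)

theorem Fg_ne : Fg ≠ ⊥ := by
  intro h
  obtain ⟨f, hf, h1⟩ := Fg_trans 1
  rw [h, Subgroup.mem_bot] at hf
  rw [hf] at h1
  exact absurd (congrArg Fin.val h1) (by decide)

/-- The isomorphism. -/
theorem Fg_iso280 : Nonempty (Fg ≃* genGroup 9 511 280 gs) := by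
  obtain ⟨e⟩ := iso280
  have hs : IsSimpleGroup (genGroup 9 511 280 gs) := by
    haveI := SU43.simple_PSU
    exact e.isSimpleGroup
  have h := exists_iso_of_compat ss_inj TT_compat (by rw [TT_fst]; exact hs) (by rw [TT_snd]; exact Fg_ne)
  rw [TT_fst, TT_snd] at h
  exact h

theorem Fg_isoPSU : Nonempty (Fg ≃* PSU 4 SU43.K9 3) := by
  obtain ⟨e⟩ := iso280
  obtain ⟨e'⟩ := Fg_iso280
  exact ⟨e'.trans e⟩

theorem Fg_simple : IsSimpleGroup Fg := by
  obtain ⟨e⟩ := Fg_isoPSU
  haveI := SU43.simple_PSU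
  exact e.isSimpleGroup

theorem Fg_card : Nat.card Fg = 3265920 := by
  obtain ⟨e⟩ := Fg_isoPSU
  rw [Nat.card_congr e.toEquiv, SU43.card_PSU']

theorem Fg_centr (π : Equiv.Perm (Fin 126)) (h : ∀ f ∈ Fg, π * f = f * π) : π = 1 := by
  have key : ∀ f ∈ Fg, ∀ i, π (f i) = f (π i) := by
    intro f hf i
    have := congrArg (fun g : Equiv.Perm (Fin 126) => g i) (h f hf)
    simpa [Equiv.Perm.mul_apply] using this
  have h0 : π 0 = 0 := by
    have h1 := key (wordPerm 9 511 126 PE (cod aW)) (wordPerm_mem _ _) 0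
    have h2 : wordPerm 9 511 126 PE (cod aW) 0 = 0 := by
      apply Fin.ext
      rw [← wordFn_eq valPE]
      exact a0_chk
    rw [h2] at h1
    apply Fin.ext
    by_contra hne
    have h3 := (allB_iff _ _).1 a_chk (π 0) (π 0).2
    have h4 : Nat.beq ((π 0 : Fin 126) : ℕ) 0 = false := by
      cases k : Nat.beq ((π 0 : Fin 126) : ℕ) 0 with
      | false => rfl
      | true => exact absurd (Nat.eq_of_beq_eq_true k) hne
    rw [h4, Bool.false_or, wordFn_eq valPE, ← h1, Nat.beq_refl] at h3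
    cases h3
  ext i
  obtain ⟨f, hf, e⟩ := Fg_trans i
  rw [← e, key f hf, h0]
  rfl

end Cfsg.Agent.Lib.Fischer.M24.C4
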