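/-
The structure of the centralizer of a product of four commuting transpositions in `Fi24'`.
-/
import Mathlib
import Cfsg.Agent.Lib.Fischer.M24.C4.Abs
import Cfsg.Agent.Lib.Fischer.M24.C4.Extra
import Cfsg.Agent.Lib.Fischer.M24.C4.FIso
import Cfsg.Agent.Lib.Fischer.M24.C4.Count
import Cfsg.Agent.Lib.Fischer.M24.C4.Chk
import Cfsg.Agent.Lib.Fischer.M24.C4.ChkQ
import Cfsg.Agent.Lib.Fischer.M24.C4.ChkY
import Cfsg.Agent.Lib.Fischer.M24.C4.ChkE

set_option autoImplicit false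
set_option maxRecDepth 100000
set_option Elab.async false

namespace Cfsg.Agent.Lib.Fischer.M24.C4

open Cfsg Cfsg.Agent.Lib.Compute.BitNet Cfsg.Agent.Lib.Fischer.M24.Net Cfsg.Agent.Lib.Fischer.M24.Explicit
open Cfsg.Agent.Lib.Compute.PermCert (get allB allB_iff Elt permOf validB permOf_apply nth)
open Cfsg.Agent.Lib.Compute.ToddCoxeterCore
open Subgroup

/-- The group. -/
noncomputable abbrev XX : Subgroup G2 := F2 ⊓ Γ

/-- The action on the blocks. -/
noncomputable def ρX : ↥XX →* Equiv.Perm (Fin 126) := ρΓ.comp (Subgroup.inclusion inf_le_right)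

theorem ρX_val (x : ↥XX) (i : Fin 126) : ((ρX x i : Fin 126) : ℕ) = rho0 x i := rfl

theorem mem_XX_of {u : List ℕ} (h1 : Nat.beq (posW NL u 306936) 306936 = true) (h2 : f5 (u ++ zW) (zW ++ u) = true) :
    Lw u ∈ XX := by
  refine ⟨Lw_F2 (Nat.eq_of_beq_eq_true h1), ?_⟩
  exact mem_Γ.2 (f5_comm h2)

theorem ker_of {x : G2} (hx : x ∈ XX) (h : ∀ i, i < 126 → rho0 x i = i) : (⟨x, hx⟩ : ↥XX) ∈ ρX.ker := by
  rw [MonoidHom.mem_ker]
  ext i
  rw [ρX_val]
  exact h i i.2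

/-! ### The extraspecial group -/

/-- The generators. -/
noncomputable def qq (k : ℕ) : G2 := Lw (qW k)

theorem q_l {k : ℕ} (hk : k < 12) : qi k < 126 ∧ qm k < 4 ∧ qn k < 4 ∧ qm k ≠ qn k ∧ posW NL (qUA.getD k []) 31671 = la k ∧
    posW NL (qUB.getD k []) 31671 = lb k ∧ posW NL (qW k) 306936 = 306936 := by
  have h := List.all_eq_true.1 q_lab k (List.mem_range.2 hk)
  simp only [Bool.and_eq_true, Nat.blt_eq] at h
  obtain ⟨⟨⟨⟨⟨⟨h1, h2⟩, h3⟩, h4⟩, h5⟩, h6⟩, h7⟩ := h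
  refine ⟨h1, h2, h3, ?_, Nat.eq_of_beq_eq_true h5, Nat.eq_of_beq_eq_true h6, Nat.eq_of_beq_eq_true h7⟩
  intro e
  rw [e, Nat.beq_refl] at h4
  cases h4

theorem comm_in {i m n : ℕ} (hi : i < 126) (hm : m < 4) (hn : n < 4) : Commute (t (labF i m)) (t (labF i n)) :=
  (Bk_tet i hi).2.2.2.1 _ (mem_Bk.2 ⟨m, hm, rfl⟩) _ (mem_Bk.2 ⟨n, hn, rfl⟩)

theorem t_sq (p : Fin NN) : t p * t p = 1 := tt2.sq _ (t_mem p)

theorem qq_eq {k : ℕ} (hk : k < 12) : qq k = t (labF (qi k) (qm k)) * t (labF (qi k) (qn k)) := by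
  obtain ⟨hi, hm, hn, -, h1, h2, -⟩ := q_l hk
  have e1 : t (labF (qi k) (qm k)) = Lw (tW (qUA.getD k [])) := t_word (labN_lt hi hm) h1
  have e2 : t (labF (qi k) (qn k)) = Lw (tW (qUB.getD k [])) := t_word (labN_lt hi hn) h2
  rw [e1, e2, ← Lw_append]
  rfl

theorem qq_comm_z {k : ℕ} (hk : k < 12) : Commute (qq k) z0 := by
  obtain ⟨hi, hm, hn, -, -, -, -⟩ := q_l hk
  rw [qq_eq hk]
  exact Commute.mul_left (lab_comm hi hm).symm (lab_comm hi hn).symm

theorem qq_X {k : ℕ} (hk : k < 12) : qq k ∈ XX :=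
  ⟨Lw_F2 (q_l hk).2.2.2.2.2.2, mem_Γ.2 (qq_comm_z hk).eq⟩

theorem qq_sq {k : ℕ} (hk : k < 12) : qq k * qq k = 1 := by
  obtain ⟨hi, hm, hn, -, -, -, -⟩ := q_l hk
  rw [qq_eq hk]
  have c := (comm_in hi hm hn).eq
  calc t (labF (qi k) (qm k)) * t (labF (qi k) (qn k)) * (t (labF (qi k) (qm k)) * t (labF (qi k) (qn k)))
      = t (labF (qi k) (qm k)) * (t (labF (qi k) (qn k)) * t (labF (qi k) (qm k))) * t (labF (qi k) (qn k)) := by group
    _ = t (labF (qi k) (qm k)) * (t (labF (qi k) (qm k)) * t (labF (qi k) (qn k))) * t (labF (qi k) (qn k)) := by rw [c]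
    _ = (t (labF (qi k) (qm k)) * t (labF (qi k) (qm k))) * (t (labF (qi k) (qn k)) * t (labF (qi k) (qn k))) := by group
    _ = 1 := by rw [t_sq, t_sq, one_mul]

theorem z0_sq : z0 * z0 = 1 := by
  have := f5_sound z_chk
  rwa [Lw_append, Lw_nil] at this

theorem z0_ne : z0 ≠ 1 := by
  have := Lw_ne_of_pt (u := zW) (v := []) 3 (by norm_num [NN]) z_ne_chk
  rwa [Lw_nil] at this

theorem z0_X : z0 ∈ XX := ⟨Lw_F2 (Nat.eq_of_beq_eq_true z_F2), mem_Γ.2 rfl⟩

theorem rho_q {k : ℕ} (hk : k < 12) {i : ℕ} (hi : i < 126) : rho0 (qq k) i = i :=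
  rho0_of_pl (w := qW k) (f := fun i => i) (qq_X hk).2 (plA_spec (q_pl k hk)) hi (by omega)

theorem conj_two (g a b : G2) : g * (a * b) * g⁻¹ = (g * a * g⁻¹) * (g * b * g⁻¹) := by group

theorem ne_of_not_beq {x y : ℕ} (h : (!(Nat.beq x y)) = true) : x ≠ y := by
  rintro rfl
  rw [Nat.beq_refl] at h
  cases h

/-- Four labels of a block. -/
theorem tet_four {i m n m1 n1 : ℕ} (hi : i < 126) (hm : m < 4) (hn : n < 4) (hm1 : m1 < 4) (hn1 : n1 < 4) (h1 : m ≠ n) (h2 : m ≠ m1)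
    (h3 : m ≠ n1) (h4 : n ≠ m1) (h5 : n ≠ n1) (h6 : m1 ≠ n1) :
    t (labF i m1) * t (labF i n1) = z0 * (t (labF i m) * t (labF i n)) := by
  have hT := Bk_tet i hi
  have hnd : [t (labF i m), t (labF i n), t (labF i m1), t (labF i n1)].Nodup := by
    simp only [List.nodup_cons, List.mem_cons, List.not_mem_nil, or_false, not_or, List.nodup_nil, and_true,
      not_false_eq_true]
    exact ⟨⟨labF_ne hi hm hn h1, labF_ne hi hm hm1 h2, labF_ne hi hm hn1 h3⟩,
      ⟨labF_ne hi hn hm1 h4, labF_ne hi hn hn1 h5⟩, labF_ne hi hm1 hn1 h6⟩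
  have hsub : [t (labF i m), t (labF i n), t (labF i m1), t (labF i n1)] ⊆ Bk i := by
    intro x hx
    simp only [List.mem_cons, List.not_mem_nil, or_false] at hx
    rcases hx with rfl | rfl | rfl | rfl
    · exact mem_Bk.2 ⟨m, hm, rfl⟩
    · exact mem_Bk.2 ⟨n, hn, rfl⟩
    · exact mem_Bk.2 ⟨m1, hm1, rfl⟩
    · exact mem_Bk.2 ⟨n1, hn1, rfl⟩
  have hlen : (Bk i).length = 4 := rfl
  have hp : [t (labF i m), t (labF i n), t (labF i m1), t (labF i n1)].Perm (Bk i) :=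
    List.Subperm.perm_of_length_le (List.subperm_of_subset hnd hsub) (by rw [hlen]; simp)
  have hprod := (hT.perm hp.symm).2.2.2.2
  simp only [List.prod_cons, List.prod_nil, mul_one] at hprod
  have cAB := comm_in hi hm hn
  have hPQ : Commute (t (labF i m) * t (labF i n)) (t (labF i m1) * t (labF i n1)) :=
    Commute.mul_left (Commute.mul_right (comm_in hi hm hm1) (comm_in hi hm hn1))
      (Commute.mul_right (comm_in hi hn hm1) (comm_in hi hn hn1))
  have hPP : (t (labF i m) * t (labF i n)) * (t (labF i m) * t (labF i n)) = 1 := by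
    calc (t (labF i m) * t (labF i n)) * (t (labF i m) * t (labF i n))
        = t (labF i m) * (t (labF i n) * t (labF i m)) * t (labF i n) := by group
      _ = t (labF i m) * (t (labF i m) * t (labF i n)) * t (labF i n) := by rw [cAB.eq]
      _ = (t (labF i m) * t (labF i m)) * (t (labF i n) * t (labF i n)) := by group
      _ = 1 := by rw [t_sq, t_sq, one_mul]
  have hz : z0 = (t (labF i m) * t (labF i n)) * (t (labF i m1) * t (labF i n1)) := by
    rw [← hprod]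
    group
  rw [hz, mul_assoc, hPQ.symm.eq, ← mul_assoc, hPP, one_mul]

theorem Lcm_cases (j k : ℕ) : cm j k = zW ∧ Nat.xor j 1 = k ∨ cm j k = [] ∧ Nat.xor j 1 ≠ k := by
  unfold cm
  cases h : Nat.beq (Nat.xor j 1) k with
  | true => exact Or.inl ⟨rfl, Nat.eq_of_beq_eq_true h⟩
  | false => exact Or.inr ⟨rfl, fun k' => by rw [k', Nat.beq_refl] at h; cases h⟩

theorem Lcm_sq (j k : ℕ) : Lw (cm j k) * Lw (cm j k) = 1 := by
  rcases Lcm_cases j k with ⟨h, -⟩ | ⟨h, -⟩
  · rw [h]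
    exact z0_sq
  · rw [h, Lw_nil, one_mul]

theorem comm_q_lt {j k : ℕ} (hk : k < 12) (hj : j < k) : qq j * qq k = Lw (cm j k) * (qq k * qq j) := by
  have hjl : j < 12 := by omega
  obtain ⟨hi, hm, hn, hne, -, -, -⟩ := q_l hk
  have hb : qcB j k = true := by
    have h := List.all_eq_true.1 (qc_all j (by omega)) k (List.mem_range.2 hk)
    rw [Bool.or_eq_true] at h
    rcases h with h | h
    · have := Nat.le_of_ble_eq_true h
      omega
    · exact h
  have hxΓ : qq j ∈ Γ := (qq_X hjl).2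
  obtain ⟨m1, hm1, e1⟩ := rho0_mem hxΓ hi hm
  obtain ⟨n1, hn1, e2⟩ := rho0_mem hxΓ hi hn
  rw [rho_q hjl hi] at e1 e2
  have a1 : posW NL (qW j) (la k) = labN (qi k) m1 := by
    have := congrArg Fin.val e1
    rw [show qq j = Lw (qW j) from rfl, φ_Lw, labF_val hi hm, labF_val hi hm1] at this
    exact this
  have b1 : posW NL (qW j) (lb k) = labN (qi k) n1 := by
    have := congrArg Fin.val e2
    rw [show qq j = Lw (qW j) from rfl, φ_Lw, labF_val hi hn, labF_val hi hn1] at this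
    exact this
  have hconj : qq j * qq k * (qq j)⁻¹ = t (labF (qi k) m1) * t (labF (qi k) n1) := by
    rw [qq_eq hk, conj_two, t_conj, t_conj, e1, e2]
  have hfin : ∀ R : G2, qq j * qq k * (qq j)⁻¹ = R * qq k → qq j * qq k = R * (qq k * qq j) := by
    intro R hR
    calc qq j * qq k = (qq j * qq k * (qq j)⁻¹) * qq j := by group
      _ = R * (qq k * qq j) := by rw [hR, mul_assoc]
  unfold qcB at hb
  rw [frc_eq, frc_eq, a1, b1] at hb
  rcases Lcm_cases j k with ⟨h1, h2⟩ | ⟨h1, h2⟩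
  · rw [h1]
    apply hfin
    have h3 : Nat.beq (Nat.xor j 1) k = true := by
      rw [h2]
      exact Nat.beq_refl _
    rw [h3] at hb
    simp only [cond_true, Bool.and_eq_true] at hb
    obtain ⟨⟨⟨c1, c2⟩, c3⟩, c4⟩ := hb
    have d1 : m1 ≠ qm k := fun e => ne_of_not_beq c1 (by rw [e]; rfl)
    have d2 : m1 ≠ qn k := fun e => ne_of_not_beq c2 (by rw [e]; rfl)
    have d3 : n1 ≠ qm k := fun e => ne_of_not_beq c3 (by rw [e]; rfl)
    have d4 : n1 ≠ qn k := fun e => ne_of_not_beq c4 (by rw [e]; rfl)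
    have d5 : m1 ≠ n1 := by
      rintro rfl
      have e3 : φ (qq j) (labF (qi k) (qm k)) = φ (qq j) (labF (qi k) (qn k)) := by rw [e1, e2]
      exact hne (labF_inj hi hi hm hn ((φ (qq j)).injective e3)).2
    rw [hconj, qq_eq hk]
    exact tet_four hi hm hn hm1 hn1 hne d1.symm d3.symm d2.symm d4.symm d5
  · rw [h1, Lw_nil, one_mul]
    have hfin2 := hfin 1
    rw [one_mul, one_mul] at hfin2
    apply hfin2
    have h3 : Nat.beq (Nat.xor j 1) k = false := by
      cases k' : Nat.beq (Nat.xor j 1) k with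
      | false => rfl
      | true => exact absurd (Nat.eq_of_beq_eq_true k') h2
    rw [h3] at hb
    simp only [cond_false, Bool.or_eq_true, Bool.and_eq_true] at hb
    rw [hconj, qq_eq hk]
    rcases hb with ⟨c1, c2⟩ | ⟨c1, c2⟩
    · have f1 : labF (qi k) m1 = labF (qi k) (qm k) := congrArg ofN (Nat.eq_of_beq_eq_true c1)
      have f2 : labF (qi k) n1 = labF (qi k) (qn k) := congrArg ofN (Nat.eq_of_beq_eq_true c2)
      rw [f1, f2]
    · have f1 : labF (qi k) m1 = labF (qi k) (qn k) := congrArg ofN (Nat.eq_of_beq_eq_true c1)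
      have f2 : labF (qi k) n1 = labF (qi k) (qm k) := congrArg ofN (Nat.eq_of_beq_eq_true c2)
      rw [f1, f2]
      exact (comm_in hi hn hm).eq

theorem cm_symm : ∀ j < 12, ∀ k < 12, cm j k = cm k j := by decide +kernel

theorem cm_self : ∀ j < 12, cm j j = [] := by decide +kernel

theorem comm_q {j k : ℕ} (hj : j < 12) (hk : k < 12) : qq j * qq k = Lw (cm j k) * (qq k * qq j) := by
  rcases lt_trichotomy j k with h | h | h
  · exact comm_q_lt hk h
  · subst h
    rw [cm_self j hj, Lw_nil, one_mul]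
  · have h1 := comm_q_lt hj h
    rw [cm_symm k (by omega) j hj] at h1
    rw [h1, ← mul_assoc, Lcm_sq, one_mul]

theorem prk_lt : ∀ k < 12, prk k < 12 := by decide +kernel

theorem cm_pc : ∀ k < 12, ∀ j < k, cm j (prk k) = [] := by decide +kernel

theorem cm_pn : ∀ k < 12, cm k (prk k) = zW := by decide +kernel

theorem hyp : Hyp z0 qq 12 prk where
  z2 := z0_sq
  z1 := z0_ne
  xz := fun k hk => qq_comm_z hk
  xx := fun k hk => qq_sq hk
  cc := by
    intro j hj k hk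
    have h := comm_q hj hk
    rcases Lcm_cases j k with ⟨h1, -⟩ | ⟨h1, -⟩
    · rw [h1] at h
      exact Or.inr h
    · rw [h1, Lw_nil, one_mul] at h
      exact Or.inl h
  prlt := prk_lt
  pc := by
    intro k hk j hj
    have h := comm_q (by omega : j < 12) (prk_lt k hk)
    rwa [cm_pc k hk j hj, Lw_nil, one_mul] at h
  pn := by
    intro k hk h1
    have h := comm_q hk (prk_lt k hk)
    rw [cm_pn k hk, h1] at h
    apply z0_ne
    have h2 : (qq (prk k) * qq k) * 1 = z0 * (qq (prk k) * qq k) := by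
      rw [mul_one]
      exact h
    have h3 : (1 : G2) = (qq (prk k) * qq k)⁻¹ * z0 * (qq (prk k) * qq k) := by
      rw [mul_assoc, ← h2]
      group
    have h4 : z0 = (qq (prk k) * qq k) * 1 * (qq (prk k) * qq k)⁻¹ := by
      rw [h2]
      group
    rw [h4]
    group

/-- The subgroup of the big group. -/
noncomputable abbrev Q0 : Subgroup G2 := HH z0 qq 12

theorem Q0_closure : Q0 = closure (insert z0 (qq '' {i | i < 12})) := Hyp.HH_eq_closure 12

theorem Q0_le {K : Subgroup G2} (h0 : z0 ∈ K) (h1 : ∀ k < 12, qq k ∈ K) : Q0 ≤ K := by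
  rw [Q0_closure, closure_le]
  rintro _ (rfl | ⟨k, hk, rfl⟩)
  · exact h0
  · exact h1 k hk

theorem Q0_X : Q0 ≤ XX := Q0_le z0_X (fun _ hk => qq_X hk)

/-- The subgroup. -/
noncomputable abbrev QX : Subgroup ↥XX := Q0.subgroupOf XX

/-- `Q` as the subgroup. -/
noncomputable def QXe : ↥QX ≃* ↥Q0 := subgroupOfEquivOfLe Q0_X

theorem card_QX : Nat.card QX = 2 ^ 13 := by
  rw [Nat.card_congr QXe.toEquiv]
  exact hyp.card_HH le_rfl

theorem extra_QX : IsExtraspecial 2 ↥QX :=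
  Cfsg.Agent.Lib.Fusion.GenExtra.isExtraspecial_congr QXe.symm (hyp.extra (by norm_num))

theorem mem_QX {x : ↥XX} : x ∈ QX ↔ (x : G2) ∈ Q0 := mem_subgroupOf

theorem QX_ker : QX ≤ ρX.ker := by
  have h1 : Q0 ≤ (ρX.ker).map XX.subtype := by
    apply Q0_le
    · exact ⟨⟨z0, z0_X⟩, ker_of z0_X (fun _ hi => rho0_z0 hi), rfl⟩
    · intro k hk
      exact ⟨⟨qq k, qq_X hk⟩, ker_of (qq_X hk) (fun _ hi => rho_q hk hi), rfl⟩
  intro x hx
  obtain ⟨a, ha, ha2⟩ := h1 (mem_QX.1 hx)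
  have : a = x := Subtype.ext ha2
  exact this ▸ ha

/-! ### The element of order three -/

/-- The element of order three. -/
noncomputable def yy : G2 := Lw yW

theorem Lw_flat_Γ {l : List (List ℕ)} (h : l.all (fun v => frc (posW NL v 31671) fun p => Nat.blt p NN && Nat.beq (posW NL zW p) p) = true) :
    Lw (l.flatMap tW) ∈ Γ := by
  induction l with
  | nil =>
    rw [List.flatMap_nil, Lw_nil]
    exact one_mem _
  | cons v l ih =>
    simp only [List.all_cons, Bool.and_eq_true] at h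
    rw [List.flatMap_cons, Lw_append]
    refine mul_mem ?_ (ih h.2)
    have h1 := h.1
    rw [frc_eq, Bool.and_eq_true, Nat.blt_eq] at h1
    rw [← t_word h1.1 rfl, mem_Γ]
    have h2 : φ z0 (ofN (posW NL v 31671)) = ofN (posW NL v 31671) := by
      apply Fin.ext
      rw [show z0 = Lw zW from rfl, φ_Lw, ofN_val h1.1]
      exact Nat.eq_of_beq_eq_true h1.2
    exact ((comm_t_iff' _ _).2 h2).eq.symm

theorem yy_F2 : yy ∈ F2 := by
  have h := Nat.eq_of_beq_eq_true y_F2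
  exact Lw_F2 h

theorem yy_Γ : yy ∈ Γ := Lw_flat_Γ y_lab

theorem yy_X : yy ∈ XX := ⟨yy_F2, yy_Γ⟩

/-- The element of order three in the group. -/
noncomputable def yX : ↥XX := ⟨yy, yy_X⟩

theorem yy_cube : yy ^ 3 = 1 := by
  have := fk_sound y3_all
  rw [Lw_append, Lw_append, Lw_nil] at this
  rw [pow_succ, pow_two]
  exact this

theorem yy_conj_z : yy * z0 * yy⁻¹ = z0 := conj_z0 yy_X.2

theorem yP_l {k : ℕ} (hk : k < 12) : (yP.getD k (0, 0)).1 < NN ∧ (yP.getD k (0, 0)).2 < NN ∧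
    posW NL (yPA.getD k []) 31671 = (yP.getD k (0, 0)).1 ∧ posW NL (yPB.getD k []) 31671 = (yP.getD k (0, 0)).2 ∧
    ∀ j ∈ (yQ.getD k ([], 0)).1, j < 12 := by
  have h := List.all_eq_true.1 yP_chk k (List.mem_range.2 hk)
  simp only [Bool.and_eq_true, Nat.blt_eq] at h
  obtain ⟨⟨⟨⟨h1, h2⟩, h3⟩, h4⟩, h5⟩ := h
  refine ⟨h1, h2, Nat.eq_of_beq_eq_true h3, Nat.eq_of_beq_eq_true h4, fun j hj => ?_⟩
  exact Nat.blt_eq.mp (List.all_eq_true.1 h5 j hj)

theorem yy_conj_eq {k : ℕ} (hk : k < 12) : yy * qq k * yy⁻¹ = Lw (pW k) := by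
  obtain ⟨h1, h2, h3, h4, -⟩ := yP_l hk
  obtain ⟨hi, hm, hn, -, -, -, -⟩ := q_l hk
  have hI := yI_all k hk
  unfold yIB at hI
  rw [Bool.and_eq_true] at hI
  have e1 : φ yy (labF (qi k) (qm k)) = ofN (yP.getD k (0, 0)).1 := by
    apply φ_ofN h1
    rw [labF_val hi hm]
    exact Nat.eq_of_beq_eq_true hI.1
  have e2 : φ yy (labF (qi k) (qn k)) = ofN (yP.getD k (0, 0)).2 := by
    apply φ_ofN h2
    rw [labF_val hi hn]
    exact Nat.eq_of_beq_eq_true hI.2
  rw [qq_eq hk, conj_two, t_conj, t_conj, e1, e2, t_word h1 h3, t_word h2 h4, ← Lw_append]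
  rfl

theorem yX_order : orderOf yX = 3 := by
  apply orderOf_eq_prime
  · apply Subtype.ext
    exact yy_cube
  · intro h
    have h1 : yy = 1 := congrArg Subtype.val h
    have h2 := yy_conj_eq (k := 0) (by norm_num)
    rw [h1] at h2
    apply Lw_ne_of_pt (u := pW 0) (v := qW 0) 16 (by norm_num [NN]) y_wit.1
    rw [← h2]
    show _ = qq 0
    group

theorem yX_ker : yX ∈ ρX.ker :=
  ker_of yy_X (fun _ hi => rho0_of_pl (w := yW) (f := fun i => i) yy_X.2 y_pl hi (by omega))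

theorem Lw_flat_mem {l : List ℕ} (h : ∀ j ∈ l, j < 12) : Lw (l.flatMap qW) ∈ Q0 := by
  induction l with
  | nil =>
    rw [List.flatMap_nil, Lw_nil]
    exact one_mem _
  | cons a l ih =>
    rw [List.flatMap_cons, Lw_append]
    exact mul_mem (x_mem_HH (h a (by simp))) (ih fun j hj => h j (List.mem_cons_of_mem _ hj))

theorem yy_qq {k : ℕ} (hk : k < 12) : yy * qq k * yy⁻¹ ∈ Q0 := by
  rw [yy_conj_eq hk, f5_sound (yE_all k hk)]
  unfold yRhs
  rw [Lw_append]
  apply mul_mem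
  · cases hb : Nat.beq (yQ.getD k ([], 0)).2 1 with
    | true =>
      show Lw zW ∈ _
      exact z_mem_HH 12
    | false =>
      show Lw [] ∈ _
      rw [Lw_nil]
      exact one_mem _
  · exact Lw_flat_mem (yP_l hk).2.2.2.2

theorem conj_mem_Q0 {y x : G2} (h0 : y * z0 * y⁻¹ ∈ Q0) (h1 : ∀ k < 12, y * qq k * y⁻¹ ∈ Q0) (hx : x ∈ Q0) :
    y * x * y⁻¹ ∈ Q0 := by
  have h : Q0 ≤ Q0.comap (MulAut.conj y).toMonoidHom := Q0_le h0 h1
  exact h hx

theorem yX_val : (yX : G2) = yy := rfl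

theorem yy_z_Q0 : yy * z0 * yy⁻¹ ∈ Q0 := by
  rw [yy_conj_z]
  exact z_mem_HH 12

theorem yX_Q (q : ↥XX) (hq : q ∈ QX) : yX * q * yX⁻¹ ∈ QX := by
  rw [mem_QX] at hq ⊢
  rw [Subgroup.coe_mul, Subgroup.coe_mul, Subgroup.coe_inv, yX_val]
  exact conj_mem_Q0 yy_z_Q0 (fun k hk => yy_qq hk) hq

/-- The element of the group. -/
noncomputable def q0X : ↥XX := ⟨qq 0, qq_X (by norm_num)⟩

theorem q0X_mem : q0X ∈ QX := mem_QX.2 (x_mem_HH (by norm_num))

theorem yX_q0 (q : ↥XX) (hq : q ∈ QX) : q * q0X * q⁻¹ ≠ yX * q0X * yX⁻¹ := by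
  intro h
  have h1 : (q : G2) * qq 0 * (q : G2)⁻¹ = yy * qq 0 * yy⁻¹ := congrArg Subtype.val h
  rcases hyp.conj_q (mem_QX.1 hq) (x_mem_HH (by norm_num : 0 < 12)) with h2 | h2
  · have h3 : Lw (pW 0) = Lw (qW 0) := by
      rw [← yy_conj_eq (k := 0) (by norm_num), ← h1]
      exact h2
    exact Lw_ne_of_pt (u := pW 0) (v := qW 0) 16 (by norm_num [NN]) y_wit.1 h3
  · have h3 : Lw (pW 0) = Lw (zW ++ qW 0) := by
      rw [← yy_conj_eq (k := 0) (by norm_num), ← h1, Lw_append]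
      exact h2
    exact Lw_ne_of_pt (u := pW 0) (v := zW ++ qW 0) 16 (by norm_num [NN]) y_wit.2 h3

/-! ### The element outside -/

/-- The element. -/
noncomputable def cX : ↥XX := ⟨Lw cW, mem_XX_of c_basic.2 c_basic.1⟩

/-- A transposition of the points. -/
def sw (p : ℕ × ℕ) : Equiv.Perm (Fin 126) := Equiv.swap (Fin.ofNat 126 p.1) (Fin.ofNat 126 p.2)

theorem sw_val (l : List (ℕ × ℕ)) (hl : l.all (fun p => Nat.blt p.1 126 && Nat.blt p.2 126 && !(Nat.beq p.1 p.2)) = true)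
    (i : Fin 126) : (((l.map sw).prod i : Fin 126) : ℕ) = swF l i := by
  induction l with
  | nil => rfl
  | cons p l ih =>
    rw [List.all_cons, Bool.and_eq_true] at hl
    have h0 := hl.1
    simp only [Bool.and_eq_true, Nat.blt_eq] at h0
    have e1 : ((Fin.ofNat 126 p.1 : Fin 126) : ℕ) = p.1 := by simp [Fin.ofNat, Nat.mod_eq_of_lt h0.1.1]
    have e2 : ((Fin.ofNat 126 p.2 : Fin 126) : ℕ) = p.2 := by simp [Fin.ofNat, Nat.mod_eq_of_lt h0.1.2]
    rw [List.map_cons, List.prod_cons, Equiv.Perm.mul_apply]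
    have e3 : swF (p :: l) i = bif Nat.beq (swF l i) p.1 then p.2 else bif Nat.beq (swF l i) p.2 then p.1 else swF l i := by
      show frc _ _ = _
      rw [frc_eq]
    rw [e3, ← ih hl.2]
    set a := (l.map sw).prod i with ha
    unfold sw
    by_cases h1 : a = Fin.ofNat 126 p.1
    · rw [h1, Equiv.swap_apply_left, e1, e2, Nat.beq_refl]
      rfl
    · have h1' : Nat.beq (a : ℕ) p.1 = false := by
        cases k : Nat.beq (a : ℕ) p.1 with
        | false => rfl
        | true =>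
          exfalso
          apply h1
          apply Fin.ext
          rw [e1]
          exact Nat.eq_of_beq_eq_true k
      by_cases h2 : a = Fin.ofNat 126 p.2
      · rw [h2, Equiv.swap_apply_right, e1, e2]
        have h3 : Nat.beq p.2 p.1 = false := by
          cases k : Nat.beq p.2 p.1 with
          | false => rfl
          | true =>
            have := Nat.eq_of_beq_eq_true k
            have h5 := h0.2
            rw [this, Nat.beq_refl] at h5
            cases h5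
        rw [h3, Nat.beq_refl]
        rfl
      · have h2' : Nat.beq (a : ℕ) p.2 = false := by
          cases k : Nat.beq (a : ℕ) p.2 with
          | false => rfl
          | true =>
            exfalso
            apply h2
            apply Fin.ext
            rw [e2]
            exact Nat.eq_of_beq_eq_true k
        rw [Equiv.swap_apply_of_ne_of_ne h1 h2, h1', h2']
        rfl

theorem ρ_c : ρX cX = (swL.map sw).prod := by
  ext i
  rw [ρX_val, sw_val _ sw_chk.1 i]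
  have h1 := rho0_of_pl (w := cW) (f := get 9 511 cE.f) (mem_XX_of c_basic.2 c_basic.1).2 (plA_spec c_pl) i.2
    (lt_trans (Nat.blt_eq.mp ((allB_iff _ _).1 c_lt i i.2)) (by norm_num))
  have h2 := Nat.eq_of_beq_eq_true ((allB_iff _ _).1 sw_chk.2.2 i i.2)
  rw [h2]
  exact h1

theorem sign_c : Equiv.Perm.sign (ρX cX) = -1 := by
  rw [ρ_c, Equiv.Perm.sign_prod_list_swap]
  · rw [List.length_map, sw_chk.2.1]
    rfl
  · intro g hg
    obtain ⟨p, hp, rfl⟩ := List.mem_map.1 hg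
    have h0 := List.all_eq_true.1 sw_chk.1 p hp
    simp only [Bool.and_eq_true, Nat.blt_eq] at h0
    refine ⟨_, _, ?_, rfl⟩
    intro k
    have e1 : ((Fin.ofNat 126 p.1 : Fin 126) : ℕ) = p.1 := by simp [Fin.ofNat, Nat.mod_eq_of_lt h0.1.1]
    have e2 : ((Fin.ofNat 126 p.2 : Fin 126) : ℕ) = p.2 := by simp [Fin.ofNat, Nat.mod_eq_of_lt h0.1.2]
    have h3 := congrArg Fin.val k
    rw [e1, e2] at h3
    have h5 := h0.2
    rw [h3, Nat.beq_refl] at h5
    cases h5

/-! ### The action contains `F` -/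

/-- A product of the reflection letters. -/
noncomputable def Rw (u : List ℕ) : G2 := (u.map rr).prod

theorem Rw_Γ {u : List ℕ} (h : ∀ a ∈ u, a < 8) : Rw u ∈ Γ := by
  induction u with
  | nil => exact one_mem _
  | cons a u ih =>
    show rr a * Rw u ∈ Γ
    exact mul_mem (rr_Γ (h a (by simp))) (ih fun b hb => h b (List.mem_cons_of_mem _ hb))

theorem Rw_F2 : ∀ {u : List ℕ}, (∀ a ∈ u, a < 8) → u.length % 2 = 0 → Rw u ∈ F2
  | [], _, _ => one_mem _
  | [a], _, h => by simp at h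
  | a :: b :: u, h1, h2 => by
    have h3 : Rw (a :: b :: u) = (rr a * rr b) * Rw u := by
      show rr a * (rr b * Rw u) = _
      rw [mul_assoc]
    rw [h3]
    refine mul_mem (mul_F2_of (rr_F2 (h1 a (by simp))) (rr_F2 (h1 b (by simp)))) (Rw_F2 (fun c hc => h1 c (by simp [hc])) ?_)
    simp only [List.length_cons] at h2
    omega

theorem rho0_rr {a : ℕ} (ha : a < 8) {i : ℕ} (hi : i < 126) : rho0 (rr a) i = get 9 511 (RE.getD a ⟨0, 0⟩).f i :=
  rho0_of_pl (w := tW (rU.getD a [])) (f := reT a) (rr_Γ ha) (plA_spec (re_pl a ha)) hi (lt_trans (re_lt ha hi) (by norm_num))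

theorem rho0_Rw {u : List ℕ} (h : ∀ a ∈ u, a < 8) {i : ℕ} (hi : i < 126) : rho0 (Rw u) i = tw u i := by
  induction u with
  | nil => exact rho0_one hi
  | cons a u ih =>
    have ha := h a (by simp)
    have hu : ∀ b ∈ u, b < 8 := fun b hb => h b (List.mem_cons_of_mem _ hb)
    show rho0 (rr a * Rw u) i = get 9 511 (RE.getD a ⟨0, 0⟩).f (tw u i)
    rw [rho0_mul (rr_Γ ha) (Rw_Γ hu) hi, ih hu, ← ih hu]
    exact rho0_rr ha (rho0_lt _ _)

theorem Fg_le : Fg ≤ ρX.range := by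
  unfold Fg Cfsg.Agent.Lib.Compute.PermCert.genGroup
  rw [closure_le]
  rintro _ ⟨e, he, rfl⟩
  obtain ⟨j, hj, rfl⟩ := mem_PE.1 he
  have h := List.all_eq_true.1 pg_chk j (List.mem_range.2 hj)
  simp only [Bool.and_eq_true, Nat.beq_eq] at h
  obtain ⟨⟨h1, h2⟩, h3⟩ := h
  have hu : ∀ a ∈ Pg.getD j [], a < 8 := fun a ha => Nat.blt_eq.mp (List.all_eq_true.1 h1 a ha)
  refine ⟨⟨Rw (Pg.getD j []), Rw_F2 hu h2, Rw_Γ hu⟩, ?_⟩
  ext i
  rw [ρX_val, permOf_apply (val_pj j hj)]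
  show rho0 (Rw (Pg.getD j [])) i = _
  rw [rho0_Rw hu i.2]
  exact Nat.eq_of_beq_eq_true ((allB_iff _ _).1 h3 i i.2)

/-! ### The kernel -/

theorem q0_eq : qq 0 = L 0 * z2 := by
  have := f5_sound q0_chk
  rw [Lw_cons, Lw_cons, Lw_nil, mul_one] at this
  exact this

theorem comm_q0_fix {u : G2} (hu : u ∈ Γ) (h : Commute u (qq 0)) : rho0 u 0 = 0 := by
  obtain ⟨e0, e1, e2, e3⟩ := t_lab0
  rw [q0_eq] at h
  have hc : Commute (L 0) z2 := comm_letters.1.symm
  have h1 : (u * L 0 * u⁻¹) * (u * z2 * u⁻¹) = L 0 * z2 := by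
    rw [← conj_mul2, h.eq]
    group
  have hm0 : L 0 ∈ D2 := by
    rw [← e1]
    exact t_mem _
  have hm1 : z2 ∈ D2 := z2_mem
  have hne : L 0 ≠ z2 := by
    rw [← e0, ← e1]
    exact labF_ne (by norm_num) (by norm_num) (by norm_num) (by norm_num)
  have h2 := FP2_2 hm0 hm1 (D2_conj u _ hm0) (D2_conj u _ hm1) hc (conj_comm2 hc) hne h1.symm
  rw [← e0, t_conj] at h2
  rcases h2 with ⟨-, h3⟩ | ⟨-, h3⟩
  · rw [e0] at h3
    rw [← e0] at h3
    exact rho0_eq hu (by norm_num) (by norm_num) (m := 0) (m' := 0) (by norm_num) (by norm_num) (t_inj h3)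
  · rw [← e1] at h3
    exact rho0_eq hu (by norm_num) (by norm_num) (m := 0) (m' := 1) (by norm_num) (by norm_num) (t_inj h3)

theorem hcen (hn : QX.Normal) (x : ↥XX) (hx : ∀ q ∈ QX, x * q = q * x) : ρX x = 1 := by
  ext i
  obtain ⟨f, hf, e⟩ := Fg_trans i
  obtain ⟨g, rfl⟩ := Fg_le hf
  have h1 : g * q0X * g⁻¹ ∈ QX := hn.conj_mem _ q0X_mem g
  have h2 := hx _ h1
  have h3 : g⁻¹ * x * g * q0X = q0X * (g⁻¹ * x * g) := by
    calc g⁻¹ * x * g * q0X = g⁻¹ * (x * (g * q0X * g⁻¹)) * g := by group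
      _ = g⁻¹ * ((g * q0X * g⁻¹) * x) * g := by rw [h2]
      _ = q0X * (g⁻¹ * x * g) := by group
  have h4 : Commute ((g⁻¹ * x * g : ↥XX) : G2) (qq 0) := congrArg Subtype.val h3
  have h5 := comm_q0_fix (g⁻¹ * x * g : ↥XX).2.2 h4
  have h6 : ρX (g⁻¹ * x * g) 0 = 0 := by
    apply Fin.ext
    rw [ρX_val]
    exact h5
  rw [map_mul, map_mul, map_inv, Equiv.Perm.mul_apply, Equiv.Perm.mul_apply, Equiv.Perm.inv_eq_iff_eq, e] at h6
  rw [h6, ← e]
  rfl

/-- The data. -/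
theorem data : Data ρX Fg QX yX cX q0X where
  hF := Fg_simple
  hFcard := Fg_card
  hFle := Fg_le
  hFc := Fg_centr
  hsign := sign_c
  hQker := QX_ker
  hQcard := card_QX
  hy3 := yX_order
  hyker := yX_ker
  hyQ := yX_Q
  hcard := card_X_le
  hcen := hcen
  hq1 := q0X_mem
  hy1 := yX_q0

/-- The structure of the centralizer. -/
theorem concl : Concl ↥XX := by
  obtain ⟨e⟩ := Fg_isoPSU
  exact data.concl_aux extra_QX (K := Cfsg.Agent.Lib.Compute.Schur2.SU43.K9) Cfsg.Agent.Lib.Compute.GFModel.card_GF9 e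

end Cfsg.Agent.Lib.Fischer.M24.C4
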